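import Mathlib
import Cfsg.Agent.Lib.ChevAut.Cons
import Cfsg.Agent.Lib.Chev.Simple

/-!
# The decomposition of an automorphism of a Chevalley group
-/

set_option autoImplicit false
set_option linter.unusedSectionVars false
set_option linter.unusedVariables false
set_option linter.unnecessarySimpa false

namespace Cfsg.Agent.Lib.ChevAut

open Cfsg.Lie Matrix Cfsg.Agent.Lib.Chev Cfsg.Agent.Lib.Chev.Full Cfsg.Agent.Lib.ChevFix Cfsg.Agent.Lib.ChevFix2

/-- Combinatorial facts on a Dynkin diagram. -/
structure DiagFacts (D : ChevalleyDatum) : Prop where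
  conn : Conn D
  sym0 : ∀ i j : Fin D.rank, i ≠ j → (D.cartan j (D.simple i) = 0 ↔ D.cartan i (D.simple j) = 0)
  sym : ∀ ρ : Equiv.Perm (Fin D.rank),
    (∀ i j, i ≠ j → (D.cartan (ρ j) (D.simple (ρ i)) = 0 ↔ D.cartan j (D.simple i) = 0)) →
    D.IsDiagramSymmetry ρ ∧ ((∀ i, D.isLong (D.simple (ρ i)) = D.isLong (D.simple i)) ∨
      (∀ i, D.isLong (D.simple (ρ i)) = !D.isLong (D.simple i)))
  same : ∀ i j : Fin D.rank, i ≠ j → D.cartan j (D.simple i) ≠ 0 →
    D.isLong (D.simple i) = D.isLong (D.simple j) → D.cartan j (D.simple i) = -1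
  diff : ∃ K : ℕ, (K = 2 ∨ K = 3) ∧ ∀ i j : Fin D.rank, i ≠ j → D.cartan j (D.simple i) ≠ 0 →
    D.isLong (D.simple i) = false → D.isLong (D.simple j) = true →
      D.cartan j (D.simple i) = -1 ∧ D.cartan i (D.simple j) = -(K : ℤ)

section Algebra

variable {F : Type*} [Field F]

theorem ringChar_of_two (h : (2 : F) = 0) : ringChar F = 2 := by
  have h1 : ringChar F ∣ 2 := by
    rw [← CharP.cast_eq_zero_iff F (ringChar F) 2]
    exact_mod_cast h
  have h2 := CharP.char_ne_one F (ringChar F)
  have := (Nat.dvd_prime Nat.prime_two).1 h1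
  tauto

theorem ringChar_of_three (h : (3 : F) = 0) : ringChar F = 3 := by
  have h1 : ringChar F ∣ 3 := by
    rw [← CharP.cast_eq_zero_iff F (ringChar F) 3]
    exact_mod_cast h
  have h2 := CharP.char_ne_one F (ringChar F)
  have := (Nat.dvd_prime Nat.prime_three).1 h1
  tauto

theorem pow_char_of_additive {K : ℕ} (hK : K = 2 ∨ K = 3) (h : ∀ a b : F, (a + b) ^ K = a ^ K + b ^ K)
    (t : F) : t ^ K = t ^ ringChar F := by
  rcases hK with rfl | rfl
  · have h1 := h 1 1
    have h2 : (2 : F) = 0 := by linear_combination h1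
    rw [ringChar_of_two h2]
  · have h1 := h 1 1
    have h2 : (2 : F) * 3 = 0 := by linear_combination h1
    rcases mul_eq_zero.1 h2 with h3 | h3
    · rw [ringChar_of_two h3]
      have h4 := h t 1
      have h5 : t * (t + 1) = 0 := by
        have h6 : (3 : F) = 1 := by linear_combination h3
        have h7 : 3 * (t ^ 2 + t) = 0 := by linear_combination h4
        rw [h6, one_mul] at h7
        linear_combination h7
      rcases mul_eq_zero.1 h5 with h6 | h6
      · simp [h6]
      · have h7 : t = 1 := by
          have : t = -1 := eq_neg_of_add_eq_zero_left h6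
          rw [this]
          linear_combination (-1 : F) * h3
        simp [h7]
    · rw [ringChar_of_three h3]

theorem pow_char_inj [Finite F] {x y : F} (h : x ^ ringChar F = y ^ ringChar F) : x = y := by
  haveI : Fact (ringChar F).Prime := ⟨CharP.char_is_prime F _⟩
  have h1 : (x - y) ^ ringChar F = 0 := by
    rw [sub_pow_expChar, h, sub_self]
  exact sub_eq_zero.1 (pow_eq_zero_iff (Fact.out : (ringChar F).Prime).ne_zero |>.1 h1)

end Algebra

theorem conn_all {D : ChevalleyDatum} (hC : Conn D) (P : Fin D.rank → Prop)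
    (hstep : ∀ i j : Fin D.rank, i ≠ j → D.cartan i (D.simple j) ≠ 0 → (P i ↔ P j)) {r : Fin D.rank} (hr : P r) (i : Fin D.rank) : P i := by
  let Q : ℕ → Prop := fun m => ∀ hm : m < D.rank, P ⟨m, hm⟩
  have h1 := hC Q (by
    intro a b ha hb hab
    by_cases h : a = b
    · subst h
      rfl
    · have h2 := hstep ⟨a, ha⟩ ⟨b, hb⟩ (fun e => h (congrArg Fin.val e)) hab
      constructor
      · intro h3 _
        exact h2.1 (h3 ha)
      · intro h3 _
        exact h2.2 (h3 hb))
  have h2 : Q r := fun _ => hr
  have h3 := (h1 r r.2).1 h2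
  exact (h1 i i.2).2 h3 i.2

variable {T : Tabs} {X : Extra} {R : RootTab} {D : ChevalleyDatum}
variable {F : Type*} [Field F]
variable (hF : Full T X R D)

include hF

theorem exists_sigma [Finite F] (hD : DiagFacts D) {θ : ↥(D.group F) ≃* ↥(D.group F)} {ρ τ c}
    (h : AutData hF θ ρ τ c) :
    D.IsDiagramSymmetry ρ ∧ ∃ σ : F ≃+* F, ∀ i t, τ i t = (σ t) ^ D.graphExp (ringChar F) i (ρ i) := by
  classical
  obtain ⟨hsym, hlen⟩ := hD.sym ρ h.adj
  refine ⟨hsym, ?_⟩
  have hρne : ∀ {i j : Fin D.rank}, i ≠ j → ρ i ≠ ρ j := fun hij e => hij (ρ.injective e)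
  -- same scalars when all the Cartan integers involved are `-1`
  have heq : ∀ i j : Fin D.rank, D.cartan (ρ i) (D.simple (ρ j)) = -1 → D.cartan i (D.simple j) = -1 →
      τ i = τ j := by
    intro i j h1 h2
    ext u
    by_cases hu : u = 0
    · simp [hu]
    · have h3 := h.star i j u hu
      rw [h1, h2, _root_.zpow_neg_one, _root_.zpow_neg_one] at h3
      exact inv_injective h3
  have hadjρ : ∀ {i j : Fin D.rank}, i ≠ j → D.cartan j (D.simple i) ≠ 0 → D.cartan (ρ j) (D.simple (ρ i)) ≠ 0 := by
    intro i j hij h0 e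
    exact h0 ((h.adj i j hij).1 e)
  have hsw : ∀ {i j : Fin D.rank}, i ≠ j → D.cartan i (D.simple j) ≠ 0 → D.cartan j (D.simple i) ≠ 0 := by
    intro i j hij h0 e
    exact h0 ((hD.sym0 i j hij).1 e)
  obtain ⟨K, hK, hdiff⟩ := hD.diff
  have hi0 : ∀ i : Fin D.rank, ∃ r : Fin D.rank, True := fun i => ⟨i, trivial⟩
  rcases hlen with hlen | hlen
  · -- the lengths are preserved: all `τ i` are equal
    by_cases hne : Nonempty (Fin D.rank)
    · obtain ⟨r⟩ := hne
      refine ⟨τ r, fun i t => ?_⟩
      have hexp : D.graphExp (ringChar F) i (ρ i) = 1 := by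
        unfold ChevalleyDatum.graphExp
        rw [hlen i]
        cases D.isLong (D.simple i) <;> simp
      rw [hexp, pow_one]
      have hall := conn_all hD.conn (fun i => τ i = τ r) (by
        intro i j hij h0
        have hτ : τ i = τ j := by
          have h0' := hsw hij h0
          by_cases hl : D.isLong (D.simple i) = D.isLong (D.simple j)
          · have h1 := hD.same j i (Ne.symm hij) h0 hl.symm
            have h2 := hD.same j i (Ne.symm hij) h0 hl.symm
            refine heq i j ?_ h1
            exact hD.same _ _ (Ne.symm (hρne hij)) (hadjρ (Ne.symm hij) h0) (by rw [hlen, hlen, hl])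
          · -- different lengths
            cases hli : D.isLong (D.simple i) <;> cases hlj : D.isLong (D.simple j)
            · simp [hli, hlj] at hl
            · -- `i` short, `j` long: use star j i
              have h1 := (hdiff i j hij h0' hli hlj).1
              have h2 := (hdiff (ρ i) (ρ j) (hρne hij) (hadjρ hij h0') (by rw [hlen, hli]) (by rw [hlen, hlj])).1
              exact (heq j i h2 h1).symm
            · have h1 := (hdiff j i (Ne.symm hij) h0 hlj hli).1
              have h2 := (hdiff (ρ j) (ρ i) (hρne (Ne.symm hij)) (hadjρ (Ne.symm hij) h0) (by rw [hlen, hlj]) (by rw [hlen, hli])).1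
              exact heq i j h2 h1
            · simp [hli, hlj] at hl
        constructor
        · intro e
          rw [← e, hτ]
        · intro e
          rw [hτ, e]) (r := r) rfl i
      show τ i t = τ r t
      rw [hall]
    · refine ⟨RingEquiv.refl F, fun i t => ?_⟩
      exact absurd ⟨i⟩ hne
  · -- the lengths are exchanged
    by_cases hne : Nonempty (Fin D.rank)
    · obtain ⟨r₀⟩ := hne
      -- a long node
      have hlong : ∃ r : Fin D.rank, D.isLong (D.simple r) = true := by
        by_cases h1 : D.isLong (D.simple r₀) = true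
        · exact ⟨r₀, h1⟩
        · refine ⟨ρ r₀, ?_⟩
          rw [hlen, Bool.not_eq_true']
          simpa using h1
      obtain ⟨r, hr⟩ := hlong
      refine ⟨τ r, fun i t => ?_⟩
      have hall := conn_all hD.conn (fun i => (D.isLong (D.simple i) = true → τ i = τ r) ∧
          (D.isLong (D.simple i) = false → ∀ t, τ i t = (τ r t) ^ ringChar F)) (by
        intro i j hij h0
        have h0' := hsw hij h0
        -- a general fact, for a pair short/long
        have hsl : ∀ {a b : Fin D.rank}, a ≠ b → D.cartan a (D.simple b) ≠ 0 → D.isLong (D.simple a) = false →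
            D.isLong (D.simple b) = true → ∀ t, τ a t = (τ b t) ^ ringChar F := by
          intro a b hab h0 ha hb t
          have h1 := (hdiff a b hab (hsw hab h0) ha hb).2
          have h2 := (hdiff (ρ b) (ρ a) (hρne (Ne.symm hab)) (hadjρ (Ne.symm hab) h0) (by rw [hlen, hb]; rfl) (by rw [hlen, ha]; rfl)).1
          have hpow : ∀ u, τ a u = (τ b u) ^ K := by
            intro u
            by_cases hu : u = 0
            · rcases hK with rfl | rfl <;> simp [hu]
            · have h3 := h.star a b u hu
              rw [h1, h2, _root_.zpow_neg_one, _root_.zpow_neg, zpow_natCast] at h3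
              exact inv_injective h3
          have hadd : ∀ x y : F, (x + y) ^ K = x ^ K + y ^ K := by
            intro x y
            obtain ⟨x', rfl⟩ := (τ b).surjective x
            obtain ⟨y', rfl⟩ := (τ b).surjective y
            rw [← map_add, ← hpow, ← hpow, ← hpow, map_add]
          rw [hpow, pow_char_of_additive hK hadd]
        have hsame : D.isLong (D.simple i) = D.isLong (D.simple j) → τ i = τ j := by
          intro hl
          refine heq i j ?_ (hD.same j i (Ne.symm hij) h0 hl.symm)
          exact hD.same _ _ (Ne.symm (hρne hij)) (hadjρ (Ne.symm hij) h0) (by rw [hlen, hlen, hl])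
        cases hli : D.isLong (D.simple i) <;> cases hlj : D.isLong (D.simple j)
        · rw [hsame (by rw [hli, hlj])]
        · -- `i` short, `j` long
          have h3 := hsl hij h0 hli hlj
          simp only [reduceCtorEq, false_imp_iff, true_and, and_true, forall_const, true_imp_iff]
          constructor
          · intro h4
            ext u
            apply pow_char_inj
            rw [← h3, h4]
          · intro h4 u
            rw [h3, h4]
        · -- `i` long, `j` short
          have h3 := hsl (Ne.symm hij) h0' hlj hli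
          simp only [reduceCtorEq, false_imp_iff, true_and, and_true, forall_const, true_imp_iff]
          constructor
          · intro h4 u
            rw [h3, h4]
          · intro h4
            ext u
            apply pow_char_inj
            rw [← h3, h4]
        · rw [hsame (by rw [hli, hlj])]) (r := r) ⟨fun _ => rfl, fun h1 => by simp [hr] at h1⟩ i
      unfold ChevalleyDatum.graphExp
      rw [hlen i]
      cases hli : D.isLong (D.simple i)
      · simp only [Bool.not_false, Bool.and_self, if_true]
        exact hall.2 hli t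
      · simp only [Bool.not_true, Bool.and_false, Bool.false_eq_true, if_false, pow_one]
        rw [hall.1 hli]
    · refine ⟨RingEquiv.refl F, fun i t => ?_⟩
      exact absurd ⟨i⟩ hne

/-- The main decomposition. -/
theorem exists_decomp [Finite F] (hD : DiagFacts D) (hC : ChainOK D) (θ : ↥(D.group F) ≃* ↥(D.group F)) :
    ∃ (x : ↥(D.group F)) (d g f : ↥(D.group F) ≃* ↥(D.group F)),
      D.IsDiagonalAut d ∧ D.IsGraphAut g ∧ D.IsFieldAut f ∧ ∀ y : ↥(D.group F), θ y = x * d (g (f y)) * x⁻¹ := by
  classical
  obtain ⟨z, hz⟩ := exists_nrm hF θ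
  set θ₀ := θ.trans (MulAut.conj z) with hθ₀
  obtain ⟨ρ, τ, c, h⟩ := exists_autData hF hz
  obtain ⟨hsym, σ, hσ⟩ := exists_sigma hF hD h
  -- the scalars
  let v : ℕ → Fˣ := fun j => if hj : j < D.rank then c (ρ.symm ⟨j, hj⟩) else 1
  have hv : ∀ i : Fin D.rank, v (ρ i) = c i := by
    intro i
    simp only [v, (ρ i).2, dif_pos]
    congr 1
    simp
  let d := diagAut hF v
  let f := fieldAut D σ
  let g : ↥(D.group F) ≃* ↥(D.group F) := f.symm.trans (θ₀.trans d.symm)
  have hp : ∀ i : Fin D.rank, D.simple i < D.nroots := fun i => hF.simple_lt i.2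
  have hn : ∀ i : Fin D.rank, D.neg (D.simple i) < D.nroots := fun i => hF.neg_lt (hp i)
  have hgp : ∀ (i : Fin D.rank) (t : F), g (gx hF (hp i) t) = gx hF (hp (ρ i)) (t ^ D.graphExp (ringChar F) i (ρ i)) := by
    intro i t
    show d.symm (θ₀ (f.symm (gx hF (hp i) t))) = _
    rw [fieldAut_symm_gx hF σ (hp i), h.pos, hσ, RingEquiv.apply_symm_apply, diagAut_symm_gx hF v (hp (ρ i)),
      chr_simple hF v (ρ i).2, hv, ← mul_assoc, inv_mul_cancel₀ (Units.ne_zero _), one_mul]
  have hgn : ∀ (i : Fin D.rank) (t : F), g (gx hF (hn i) t) = gx hF (hn (ρ i)) (t ^ D.graphExp (ringChar F) i (ρ i)) := by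
    intro i t
    show d.symm (θ₀ (f.symm (gx hF (hn i) t))) = _
    rw [fieldAut_symm_gx hF σ (hn i), h.neg, hσ, RingEquiv.apply_symm_apply, diagAut_symm_gx hF v (hn (ρ i)),
      chr_neg hF v (hp (ρ i)), chr_simple hF v (ρ i).2, hv, ← mul_assoc]
    congr 1
    simp
  refine ⟨z⁻¹, d, g, f, isDiagonalAut_diagAut hF hC v, ⟨ρ, hsym, ?_⟩, isFieldAut_fieldAut hF σ, ?_⟩
  · intro y i t
    constructor
    · intro hy
      rw [eq_gx hF (hp i) hy, hgp]
      simp
    · intro hy
      rw [eq_gx hF (hn i) hy, hgn]
      simp
  · intro y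
    have h1 : d (g (f y)) = θ₀ y := by
      show d (d.symm (θ₀ (f.symm (f y)))) = _
      simp
    rw [h1, hθ₀]
    simp only [MulEquiv.trans_apply, MulAut.conj_apply]
    group

end Cfsg.Agent.Lib.ChevAut
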