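import Mathlib
import Cfsg.Agent.Lib.ChevAut.Decomp

/-!
# Automorphisms permuting the fundamental root subgroups preserve `U` and `V`
-/

set_option autoImplicit false
set_option linter.unusedSectionVars false
set_option linter.unusedVariables false
set_option linter.unnecessarySimpa false

namespace Cfsg.Agent.Lib.ChevAut

open Cfsg.Lie Matrix Cfsg.Agent.Lib.Chev Cfsg.Agent.Lib.Chev.Full Cfsg.Agent.Lib.ChevFix Cfsg.Agent.Lib.ChevFix2

variable {T : Tabs} {X : Extra} {R : RootTab} {D : ChevalleyDatum}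
variable {F : Type*} [Field F]
variable (hF : Full T X R D)

/-- `θ` permutes the fundamental root subgroups and their negatives, by `ρ`. -/
structure SimpleMap (hF : Full T X R D) (θ : ↥(D.group F) ≃* ↥(D.group F)) (ρ : Equiv.Perm (Fin D.rank)) : Prop where
  pos : ∀ (i : Fin D.rank) (g : ↥(D.group F)), (∃ t : F, g = gx hF (hF.simple_lt i.2) t) ↔
    ∃ t' : F, θ g = gx hF (hF.simple_lt (ρ i).2) t'
  neg : ∀ (i : Fin D.rank) (g : ↥(D.group F)), (∃ t : F, g = gx hF (hF.neg_lt (hF.simple_lt i.2)) t) ↔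
    ∃ t' : F, θ g = gx hF (hF.neg_lt (hF.simple_lt (ρ i).2)) t'

include hF

theorem SimpleMap.symm {θ : ↥(D.group F) ≃* ↥(D.group F)} {ρ : Equiv.Perm (Fin D.rank)}
    (h : SimpleMap hF θ ρ) : SimpleMap hF θ.symm ρ.symm := by
  constructor
  · intro i g
    have h1 := h.pos (ρ.symm i) (θ.symm g)
    rw [MulEquiv.apply_symm_apply] at h1
    simp only [Equiv.apply_symm_apply] at h1
    exact h1.symm
  · intro i g
    have h1 := h.neg (ρ.symm i) (θ.symm g)
    rw [MulEquiv.apply_symm_apply] at h1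
    simp only [Equiv.apply_symm_apply] at h1
    exact h1.symm

theorem SimpleMap.autData [Finite F] {θ : ↥(D.group F) ≃* ↥(D.group F)} {ρ : Equiv.Perm (Fin D.rank)}
    (h : SimpleMap hF θ ρ) : ∃ τ c, AutData hF θ ρ τ c := by
  classical
  have h1 : ∀ i : Fin D.rank, ∃ ψ : F → F, _ := fun i => data_of_iff hF (hF.simple_lt i.2) (hF.simple_lt (ρ i).2)
    (θ := θ) (fun g => by
      have := h.pos i g
      constructor
      · rintro ⟨t, ht⟩
        obtain ⟨t', ht'⟩ := this.1 ⟨t, Subtype.ext ht⟩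
        exact ⟨t', congrArg Subtype.val ht'⟩
      · rintro ⟨t, ht⟩
        obtain ⟨t', ht'⟩ := this.2 ⟨t, Subtype.ext ht⟩
        exact ⟨t', congrArg Subtype.val ht'⟩)
  have h2 : ∀ i : Fin D.rank, ∃ ψ : F → F, _ := fun i => data_of_iff hF (hF.neg_lt (hF.simple_lt i.2)) (hF.neg_lt (hF.simple_lt (ρ i).2))
    (θ := θ) (fun g => by
      have := h.neg i g
      constructor
      · rintro ⟨t, ht⟩
        obtain ⟨t', ht'⟩ := this.1 ⟨t, Subtype.ext ht⟩
        exact ⟨t', congrArg Subtype.val ht'⟩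
      · rintro ⟨t, ht⟩
        obtain ⟨t', ht'⟩ := this.2 ⟨t, Subtype.ext ht⟩
        exact ⟨t', congrArg Subtype.val ht'⟩)
  choose ψ hψ hψb hψa using h1
  choose ψ' hψ' hψb' hψa' using h2
  exact autData_of_data hF ρ ψ ψ' hψ hψb hψa hψ' hψb' hψa'

theorem AutData.simpleMap {θ : ↥(D.group F) ≃* ↥(D.group F)} {ρ : Equiv.Perm (Fin D.rank)} {τ c}
    (h : AutData hF θ ρ τ c) : SimpleMap hF θ ρ := by
  constructor
  · intro i g
    constructor
    · rintro ⟨t, rfl⟩
      exact ⟨_, h.pos i t⟩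
    · rintro ⟨t', ht'⟩
      refine ⟨(τ i).symm (((c i)⁻¹ : Fˣ) * t'), ?_⟩
      apply θ.injective
      rw [ht', h.pos i]
      congr 1
      simp
  · intro i g
    constructor
    · rintro ⟨t, rfl⟩
      exact ⟨_, h.neg i t⟩
    · rintro ⟨t', ht'⟩
      refine ⟨(τ i).symm ((c i : Fˣ) * t'), ?_⟩
      apply θ.injective
      rw [ht', h.neg i]
      congr 1
      simp

/-- Conjugation of a root element by `n_m(c)`. -/
theorem nG_conj_root {m : ℕ} (hm : m < D.rank) {c : F} (hc : c ≠ 0) {s : ℕ} (hs : s < D.nroots) :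
    ∃ u : F, u ≠ 0 ∧ ∀ t : F, hF.c.nG (D.simple m) c * hF.c.xG s t * (hF.c.nG (D.simple m) c)⁻¹ =
      hF.c.xG (X.wf m s) (u * t) := by
  have hcom : ∀ (a : F) (r : ℕ) (hr : r < D.nroots),
      hF.c.hG (D.simple m) c * hF.c.xG r a = hF.c.xG r (c ^ (D.cartan m r) * a) * hF.c.hG (D.simple m) c := by
    intro a r hr
    apply Units.ext
    simp only [Units.val_mul, Checks.coe_hG, Checks.coe_xG]
    exact hF.c.hSimple_mul_x hm hr c hc a
  refine ⟨c ^ (D.cartan m (X.wf m s)) * ((X.eta m s : ℤ) : F), mul_ne_zero (zpow_ne_zero _ hc) (hF.eta_ne hm hs), fun t => ?_⟩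
  have h1 := hF.nS_conj_xG hm hs t
  rw [hF.c.nG_eq_hG_mul]
  have h2 : hF.c.hG (D.simple m) c * hF.c.nG (D.simple m) 1 * hF.c.xG s t * (hF.c.hG (D.simple m) c * hF.c.nG (D.simple m) 1)⁻¹ =
      hF.c.hG (D.simple m) c * (hF.nS m * hF.c.xG s t * (hF.nS m)⁻¹) * (hF.c.hG (D.simple m) c)⁻¹ := by
    show _ = hF.c.hG (D.simple m) c * (hF.c.nG (D.simple m) 1 * hF.c.xG s t * (hF.c.nG (D.simple m) 1)⁻¹) * (hF.c.hG (D.simple m) c)⁻¹
    group
  rw [h2, h1, hcom _ _ (hF.wf_lt hm hs), mul_inv_cancel_right, mul_assoc]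

/-- The image of root subgroups under an automorphism with the `SimpleMap` property. -/
theorem map_root [Finite F] {θ : ↥(D.group F) ≃* ↥(D.group F)} {ρ : Equiv.Perm (Fin D.rank)} (h : SimpleMap hF θ ρ) :
    ∀ r, r < D.nroots → ∃ (hr : r < D.nroots) (r' : ℕ) (hr' : r' < D.nroots), (R.N ≤ r ↔ R.N ≤ r') ∧
      ∀ t : F, ∃ t' : F, θ (gx hF hr t) = gx hF hr' t' := by
  classical
  obtain ⟨τ, c, hd⟩ := h.autData hF
  have hn1 : ∀ (j : Fin D.rank), (θ (gx hF (hF.simple_lt j.2) (1 : F) * gx hF (hF.neg_lt (hF.simple_lt j.2)) (-1) *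
      gx hF (hF.simple_lt j.2) 1)).1 = hF.c.nG (D.simple (ρ j)) ((c j : Fˣ) : F) := by
    intro j
    simp only [map_mul, hd.pos, hd.neg, Subgroup.coe_mul, gx_val, map_one, mul_one, map_neg]
    rw [nG_eq hF]
    congr 3
    simp
  refine hF.root_induction (P := fun r => ∃ (hr : r < D.nroots) (r' : ℕ) (hr' : r' < D.nroots), (R.N ≤ r ↔ R.N ≤ r') ∧
      ∀ t : F, ∃ t' : F, θ (gx hF hr t) = gx hF hr' t') ?_ ?_
  · intro j hj
    let j' : Fin D.rank := ⟨j, hj⟩
    refine ⟨hF.simple_lt hj, D.simple (ρ j'), hF.simple_lt (ρ j').2, ?_, fun t => ⟨_, hd.pos j' t⟩⟩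
    have h1 := hF.simple_ge hj
    have h2 := hF.simple_ge (ρ j').2
    simp [h1, h2]
  · intro j hj s hs ih
    obtain ⟨hs0, s', hs', hsign, ht⟩ := ih
    let j' : Fin D.rank := ⟨j, hj⟩
    obtain ⟨u, hu0, hu⟩ := nG_conj_root hF (F := F) (ρ j').2 (Units.ne_zero (c j')) hs'
    have hws := hF.wf_lt hj hs
    have hws' := hF.wf_lt (ρ j').2 hs'
    refine ⟨hws, _, hws', ?_, ?_⟩
    · -- signs
      have hp1 : ∀ t : F, t ≠ 0 → (gx hF hs (1 : F) = gx hF (hF.simple_lt hj) t) → s = D.simple j := by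
        intro t _ e
        exact hF.xG_root_inj hs (hF.simple_lt hj) one_ne_zero (congrArg Subtype.val e)
      -- `s = p_j ↔ s' = p_ρj`
      obtain ⟨t1, ht1⟩ := ht (1 : F)
      have ht10 : t1 ≠ 0 := by
        intro e
        rw [e] at ht1
        have h3 : gx hF hs' (0 : F) = 1 := Subtype.ext (hF.c.xG_zero s')
        rw [h3, map_eq_one_iff θ θ.injective] at ht1
        exact xG_ne_one hF hs one_ne_zero (congrArg Subtype.val ht1)
      have hiffp : s = D.simple j ↔ s' = D.simple (ρ j') := by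
        constructor
        · rintro rfl
          have h3 : gx hF hs (1 : F) = gx hF (hF.simple_lt j'.2) 1 := rfl
          rw [h3, hd.pos j'] at ht1
          exact (hF.xG_root_inj hs' (hF.simple_lt (ρ j').2) ht10 (congrArg Subtype.val ht1.symm))
        · rintro rfl
          obtain ⟨t2, ht2⟩ := (h.pos j' (gx hF hs 1)).2 ⟨t1, ht1⟩
          exact hF.xG_root_inj hs (hF.simple_lt hj) one_ne_zero (congrArg Subtype.val ht2)
      have hiffn : s = D.neg (D.simple j) ↔ s' = D.neg (D.simple (ρ j')) := by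
        constructor
        · rintro rfl
          have h3 : gx hF hs (1 : F) = gx hF (hF.neg_lt (hF.simple_lt j'.2)) 1 := rfl
          rw [h3, hd.neg j'] at ht1
          exact (hF.xG_root_inj hs' (hF.neg_lt (hF.simple_lt (ρ j').2)) ht10 (congrArg Subtype.val ht1.symm))
        · rintro rfl
          obtain ⟨t2, ht2⟩ := (h.neg j' (gx hF hs 1)).2 ⟨t1, ht1⟩
          exact hF.xG_root_inj hs (hF.neg_lt (hF.simple_lt hj)) one_ne_zero (congrArg Subtype.val ht2)
      have hgen : ∀ {m a : ℕ} (hm : m < D.rank) (ha : a < D.nroots), (R.N ≤ X.wf m a ↔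
          ((R.N ≤ a ∧ a ≠ D.simple m) ∨ a = D.neg (D.simple m))) := by
        intro m a hm ha
        have h2 := hF.two
        have hpm := hF.simple_lt hm
        constructor
        · intro h3
          by_cases h4 : a = D.neg (D.simple m)
          · exact Or.inr h4
          · left
            refine ⟨?_, ?_⟩
            · by_contra h5
              have := hF.wf_neg_root (Nat.lt_of_not_ge h5) hm h4
              omega
            · rintro rfl
              rw [hF.wf_simple hm] at h3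
              have := hF.neg_lt_N hpm (hF.simple_ge hm)
              omega
        · rintro (⟨h3, h4⟩ | rfl)
          · exact (hF.wf_pos ha h3 hm h4).1
          · rw [hF.wf_neg_simple hm]
            exact hF.simple_ge hm
      rw [hgen hj hs, hgen (ρ j').2 hs', hsign, hiffn]
      show (R.N ≤ s' ∧ s ≠ D.simple j ∨ _) ↔ _
      rw [Ne, hiffp]
    · intro t
      -- `x_{w s}(t) = n x_s(η t) n⁻¹`
      obtain ⟨t', ht'⟩ := ht (((X.eta j s : ℤ) : F)⁻¹ * t)
      refine ⟨u * t', ?_⟩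
      have h1 := hF.nS_conj_xG hj hs (((X.eta j s : ℤ) : F)⁻¹ * t)
      rw [← mul_assoc, mul_inv_cancel₀ (hF.eta_ne hj hs), one_mul] at h1
      obtain ⟨gnj, hgnj, hθgnj⟩ : ∃ g : ↥(D.group F), g.1 = hF.nS j ∧
          (θ g).1 = hF.c.nG (D.simple (ρ j')) ((c j' : Fˣ) : F) := by
        refine ⟨gx hF (hF.simple_lt j'.2) (1 : F) * gx hF (hF.neg_lt (hF.simple_lt j'.2)) (-1) *
          gx hF (hF.simple_lt j'.2) 1, ?_, hn1 j'⟩
        show hF.c.xG (D.simple j) 1 * hF.c.xG (D.neg (D.simple j)) (-1) * hF.c.xG (D.simple j) 1 = hF.c.nG (D.simple j) 1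
        rw [nG_eq hF, inv_one]
      have h2 : gx hF hws t = gnj * gx hF hs (((X.eta j s : ℤ) : F)⁻¹ * t) * gnj⁻¹ := by
        apply Subtype.ext
        show hF.c.xG (X.wf j s) t = gnj.1 * hF.c.xG s (((X.eta j s : ℤ) : F)⁻¹ * t) * gnj.1⁻¹
        rw [hgnj]
        exact h1.symm
      rw [h2, map_mul, map_mul, map_inv]
      apply Subtype.ext
      show (θ gnj).1 * (θ (gx hF hs (((X.eta j s : ℤ) : F)⁻¹ * t))).1 * ((θ gnj).1)⁻¹ = hF.c.xG _ (u * t')
      rw [hθgnj, ht', gx_val]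
      exact hu t'

/-- Automorphisms with the `SimpleMap` property preserve `U` and `V`: half. -/
theorem simpleMap_half [Finite F] {θ : ↥(D.group F) ≃* ↥(D.group F)} {ρ : Equiv.Perm (Fin D.rank)} (h : SimpleMap hF θ ρ)
    (x : ↥(D.group F)) : (x.1 ∈ D.posUnipotent F → (θ x).1 ∈ D.posUnipotent F) ∧
      (x.1 ∈ D.negUnipotent F → (θ x).1 ∈ D.negUnipotent F) := by
  have h2 := hF.two
  have hmap := map_root hF h
  constructor
  · intro hx
    have hle : D.posUnipotent F ≤ ((D.posUnipotent F).comap ((D.group F).subtype.comp θ.toMonoidHom)).map (D.group F).subtype := by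
      unfold ChevalleyDatum.posUnipotent
      rw [Subgroup.closure_le]
      rintro g ⟨r, t, hr, hg⟩
      obtain ⟨hr1, hr2⟩ := hF.isPos_iff.1 hr
      obtain ⟨hr0, r', hr', hsign, ht⟩ := hmap r hr1
      refine ⟨gx hF hr1 t, ?_, (hF.c.eq_xG hg).symm⟩
      obtain ⟨t', ht'⟩ := ht t
      show (θ (gx hF hr1 t)).1 ∈ Subgroup.closure _
      rw [ht']
      exact hF.xG_mem_U hr' (hsign.1 hr2) t'
    obtain ⟨y, hy, e⟩ := hle hx
    have : y = x := Subtype.ext e
    rw [← this]
    exact hy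
  · intro hx
    have hle : D.negUnipotent F ≤ ((D.negUnipotent F).comap ((D.group F).subtype.comp θ.toMonoidHom)).map (D.group F).subtype := by
      unfold ChevalleyDatum.negUnipotent
      rw [Subgroup.closure_le]
      rintro g ⟨r, t, hr, hg⟩
      have hr2 := hF.isNeg_iff.1 hr
      have hr1 : r < D.nroots := hr.1
      obtain ⟨hr0, r', hr', hsign, ht⟩ := hmap r hr1
      refine ⟨gx hF hr1 t, ?_, (hF.c.eq_xG hg).symm⟩
      obtain ⟨t', ht'⟩ := ht t
      show (θ (gx hF hr1 t)).1 ∈ Subgroup.closure _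
      rw [ht']
      refine hF.xG_mem_V ?_ t'
      by_contra h5
      have := hsign.2 (by omega)
      omega
    obtain ⟨y, hy, e⟩ := hle hx
    have : y = x := Subtype.ext e
    rw [← this]
    exact hy

/-- Automorphisms with the `SimpleMap` property preserve `U` and `V`. -/
theorem SimpleMap.nrm [Finite F] {θ : ↥(D.group F) ≃* ↥(D.group F)} {ρ : Equiv.Perm (Fin D.rank)} (h : SimpleMap hF θ ρ) :
    Nrm D F θ := by
  have hs := h.symm hF
  constructor
  · intro x
    refine ⟨fun h1 => ?_, fun h1 => (simpleMap_half hF h x).1 h1⟩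
    have := (simpleMap_half hF hs (θ x)).1 h1
    simpa using this
  · intro x
    refine ⟨fun h1 => ?_, fun h1 => (simpleMap_half hF h x).2 h1⟩
    have := (simpleMap_half hF hs (θ x)).2 h1
    simpa using this

/-- An automorphism preserving every root subgroup preserves `U` and `V`: half. -/
theorem root_action_half {θ : ↥(D.group F) ≃* ↥(D.group F)}
    (h : ∀ (r : ℕ) (hr : r < D.nroots) (t : F), ∃ t' : F, θ (gx hF hr t) = gx hF hr t')
    (x : ↥(D.group F)) : (x.1 ∈ D.posUnipotent F → (θ x).1 ∈ D.posUnipotent F) ∧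
      (x.1 ∈ D.negUnipotent F → (θ x).1 ∈ D.negUnipotent F) := by
  have h2 := hF.two
  constructor
  · intro hx
    have hle : D.posUnipotent F ≤ ((D.posUnipotent F).comap ((D.group F).subtype.comp θ.toMonoidHom)).map (D.group F).subtype := by
      unfold ChevalleyDatum.posUnipotent
      rw [Subgroup.closure_le]
      rintro g ⟨r, t, hr, hg⟩
      obtain ⟨hr1, hr2⟩ := hF.isPos_iff.1 hr
      refine ⟨gx hF hr1 t, ?_, (hF.c.eq_xG hg).symm⟩
      obtain ⟨t', ht'⟩ := h r hr1 t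
      show (θ (gx hF hr1 t)).1 ∈ Subgroup.closure _
      rw [ht']
      exact hF.xG_mem_U hr1 hr2 t'
    obtain ⟨y, hy, e⟩ := hle hx
    have : y = x := Subtype.ext e
    rw [← this]
    exact hy
  · intro hx
    have hle : D.negUnipotent F ≤ ((D.negUnipotent F).comap ((D.group F).subtype.comp θ.toMonoidHom)).map (D.group F).subtype := by
      unfold ChevalleyDatum.negUnipotent
      rw [Subgroup.closure_le]
      rintro g ⟨r, t, hr, hg⟩
      have hr2 := hF.isNeg_iff.1 hr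
      have hr1 : r < D.nroots := hr.1
      refine ⟨gx hF hr1 t, ?_, (hF.c.eq_xG hg).symm⟩
      obtain ⟨t', ht'⟩ := h r hr1 t
      show (θ (gx hF hr1 t)).1 ∈ Subgroup.closure _
      rw [ht']
      exact hF.xG_mem_V hr2 t'
    obtain ⟨y, hy, e⟩ := hle hx
    have : y = x := Subtype.ext e
    rw [← this]
    exact hy

/-- An automorphism preserving every root subgroup preserves `U` and `V`. -/
theorem nrm_of_root_action {θ : ↥(D.group F) ≃* ↥(D.group F)}
    (h : ∀ (r : ℕ) (hr : r < D.nroots) (t : F), ∃ t' : F, θ (gx hF hr t) = gx hF hr t')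
    (hs : ∀ (r : ℕ) (hr : r < D.nroots) (t : F), ∃ t' : F, θ.symm (gx hF hr t) = gx hF hr t') : Nrm D F θ := by
  constructor
  · intro x
    refine ⟨fun h1 => ?_, fun h1 => (root_action_half hF h x).1 h1⟩
    have := (root_action_half hF hs (θ x)).1 h1
    simpa using this
  · intro x
    refine ⟨fun h1 => ?_, fun h1 => (root_action_half hF h x).2 h1⟩
    have := (root_action_half hF hs (θ x)).2 h1
    simpa using this

/-- An element of the group inducing an automorphism preserving `U` and `V` lies in `H`. -/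
theorem mem_diagonal_of_nrm {x : ↥(D.group F)} (h : Nrm D F (MulAut.conj x)) : x.1 ∈ D.diagonalSubgroup F := by
  obtain ⟨n₀, hn₀, σ₀, u₀, hact, hiff⟩ := hF.exists_opp_act (F := F)
  have hm₁ := hF.map_conj_U_of_act hact hiff
  have hm₂ : (D.posUnipotent F).map (MulAut.conj n₀⁻¹).toMonoidHom = D.negUnipotent F := by
    refine hF.map_conj_U_of_act hact.inv ?_
    intro s
    have h1 := hiff (σ₀⁻¹ s)
    have h0 : σ₀ (σ₀⁻¹ s) = s := by simp
    rw [h0] at h1
    have h2 := hF.two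
    have hs := s.2
    have hs' := (σ₀⁻¹ s).2
    omega
  have hnG : n₀ ∈ D.group F := hF.c.monomial_le_group hn₀
  let nG : ↥(D.group F) := ⟨n₀, hnG⟩
  have hB1 : x.1 ∈ D.borelSubgroup F := by
    rw [mem_borel_iff_conj hF]
    intro u hu
    have h1 := (h.u (x⁻¹ * u * x)).1
    rw [← h.u]
    simpa [MulAut.conj_apply, mul_assoc] using hu
  have hB2 : n₀ * x.1 * n₀⁻¹ ∈ D.borelSubgroup F := by
    have h3 := (mem_borel_iff_conj hF (nG * x * nG⁻¹)).2 (by
      intro u hu
      -- `n₀⁻¹ u n₀ ∈ V`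
      have h4 : n₀⁻¹ * u.1 * n₀ ∈ D.negUnipotent F := by
        rw [← hm₂]
        refine ⟨u.1, hu, ?_⟩
        show n₀⁻¹ * u.1 * n₀⁻¹⁻¹ = _
        rw [inv_inv]
      have h5 : (x⁻¹ * (nG⁻¹ * u * nG) * x).1 ∈ D.negUnipotent F := by
        rw [← h.v]
        have h6 : (MulAut.conj x) (x⁻¹ * (nG⁻¹ * u * nG) * x) = nG⁻¹ * u * nG := by
          simp [MulAut.conj_apply, mul_assoc]
        rw [h6]
        exact h4
      have h7 : ((x⁻¹ * (nG⁻¹ * u * nG) * x).1 : GL D.Idx F) ∈ D.negUnipotent F := h5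
      rw [← hm₂] at h7
      obtain ⟨u', hu', e⟩ := h7
      have e' : n₀⁻¹ * u' * n₀⁻¹⁻¹ = (x⁻¹ * (nG⁻¹ * u * nG) * x).1 := e
      have h8 : ((nG * x * nG⁻¹)⁻¹ * u * (nG * x * nG⁻¹) : ↥(D.group F)).1 = u' := by
        have h9 : ((nG * x * nG⁻¹)⁻¹ * u * (nG * x * nG⁻¹) : ↥(D.group F)).1 =
            n₀ * (x⁻¹ * (nG⁻¹ * u * nG) * x).1 * n₀⁻¹ := by
          show (n₀ * x.1 * n₀⁻¹)⁻¹ * u.1 * (n₀ * x.1 * n₀⁻¹) = n₀ * (x.1⁻¹ * (n₀⁻¹ * u.1 * n₀) * x.1) * n₀⁻¹
          group
        rw [h9, ← e']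
        group
      rw [h8]
      exact hu')
    exact h3
  exact hF.borel_inf_conj hact hn₀ hiff hB1 hB2

end Cfsg.Agent.Lib.ChevAut
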