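import Mathlib
import Cfsg.Agent.Lib.ChevAut.SimpleMap
import Cfsg.Agent.Lib.ChevSimpleGen
import Cfsg.Prelude.Def_KGroupFacts

/-!
# Counting outer automorphisms
-/

set_option autoImplicit false
set_option linter.unusedSectionVars false
set_option linter.unusedVariables false
set_option linter.unnecessarySimpa false

namespace Cfsg.Agent.Lib.ChevAut

open Cfsg.Lie Matrix Cfsg.Agent.Lib.Chev Cfsg.Agent.Lib.Chev.Full Cfsg.Agent.Lib.ChevFix Cfsg.Agent.Lib.ChevFix2

/-- The order of the group of automorphisms of a finite field. -/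
theorem card_ringAut' {F : Type*} [Field F] [Fintype F] {p f : ℕ} [Fact p.Prime] (hF : Fintype.card F = p ^ f) :
    Nat.card (F ≃+* F) = f := by
  classical
  have hp : p.Prime := Fact.out
  obtain ⟨p', hp'⟩ := CharP.exists F
  have hf : f ≠ 0 := by
    rintro rfl
    have : Fintype.card F ≠ 1 := (Fintype.one_lt_card).ne'
    simp [hF] at this
  have hpF : CharP F p := by
    obtain ⟨k, hp'prime, hk'⟩ := FiniteField.card F p'
    have h1 : p' ∣ p ^ f := by
      rw [← hF, hk']
      exact dvd_pow_self _ k.ne_zero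
    have h2 : p' = p := (Nat.prime_dvd_prime_iff_eq hp'prime hp).mp (hp'prime.dvd_of_dvd_pow h1)
    rwa [h2] at hp'
  let _ : Algebra (ZMod p) F := ZMod.algebra F p
  have h1 : Nat.card (F ≃ₐ[ZMod p] F) = Module.finrank (ZMod p) F := IsGalois.card_aut_eq_finrank (ZMod p) F
  have h2 : Module.finrank (ZMod p) F = f := by
    have := Module.card_eq_pow_finrank (K := ZMod p) (V := F)
    rw [ZMod.card, hF] at this
    exact (Nat.pow_right_injective hp.two_le this).symm
  rw [← h2, ← h1]
  apply Nat.card_congr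
  exact {
    toFun := fun σ => AlgEquiv.ofRingEquiv (f := σ) (by
      intro r
      have := RingHom.ext_zmod ((σ : F →+* F).comp (algebraMap (ZMod p) F)) (algebraMap (ZMod p) F)
      exact DFunLike.congr_fun this r)
    invFun := fun σ => (σ : F ≃+* F)
    left_inv := fun σ => by
      ext x
      rfl
    right_inv := fun σ => by
      ext x
      rfl }

variable {T : Tabs} {X : Extra} {R : RootTab} {D : ChevalleyDatum}
variable {F : Type*} [Field F]

/-- The subgroup of automorphisms preserving `U` and `V`. -/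
def nrSub (D : ChevalleyDatum) (F : Type*) [Field F] : Subgroup (MulAut ↥(D.group F)) where
  carrier := {θ | Nrm D F θ}
  mul_mem' := by
    intro a b ha hb
    refine ⟨fun x => ?_, fun x => ?_⟩
    · show (a (b x)).1 ∈ _ ↔ _
      rw [ha.u, hb.u]
    · show (a (b x)).1 ∈ _ ↔ _
      rw [ha.v, hb.v]
  one_mem' := ⟨fun x => Iff.rfl, fun x => Iff.rfl⟩
  inv_mem' := by
    intro a ha
    refine ⟨fun x => ?_, fun x => ?_⟩
    · rw [← ha.u]
      show (a (a.symm x)).1 ∈ _ ↔ _
      simp
    · rw [← ha.v]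
      show (a (a.symm x)).1 ∈ _ ↔ _
      simp

theorem mem_nrSub {θ : MulAut ↥(D.group F)} : θ ∈ nrSub D F ↔ Nrm D F θ := Iff.rfl

/-- Index formula for a supplement of a finite group -/
theorem card_quot_of_sup {G : Type*} [Group G] [Finite G] (K N : Subgroup G) [K.Normal] (h : N ⊔ K = ⊤) :
    Nat.card (G ⧸ K) * Nat.card ↥(N ⊓ K) = Nat.card N := by
  have h1 : K.index = (K.subgroupOf N).index := by
    have := Subgroup.relIndex_sup_right N K
    rw [h, Subgroup.relIndex_top_right] at this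
    rw [this, Subgroup.relIndex]
  have h3 : Nat.card ↥(N ⊓ K) = Nat.card ↥(K.subgroupOf N) := by
    refine Nat.card_congr ?_
    exact {
      toFun := fun x => ⟨⟨x.1, x.2.1⟩, Subgroup.mem_subgroupOf.2 x.2.2⟩
      invFun := fun x => ⟨x.1.1, x.1.2, Subgroup.mem_subgroupOf.1 x.2⟩
      left_inv := fun x => rfl
      right_inv := fun x => rfl }
  show K.index * _ = _
  rw [h1, h3, mul_comm]
  exact Subgroup.card_mul_index _

variable (hF : Full T X R D)

include hF

theorem nrSub_sup_inn [Finite F] : nrSub D F ⊔ Cfsg.Inn ↥(D.group F) = ⊤ := by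
  rw [eq_top_iff]
  intro θ _
  obtain ⟨z, hz⟩ := exists_nrm hF θ
  have h1 : θ = (MulAut.conj z⁻¹) * (θ.trans (MulAut.conj z)) := by
    refine MulEquiv.ext (fun y => ?_)
    simp only [MulAut.mul_apply, MulEquiv.trans_apply, MulAut.conj_apply]
    group
  rw [h1]
  exact Subgroup.mul_mem _ (Subgroup.mem_sup_right ⟨z⁻¹, rfl⟩) (Subgroup.mem_sup_left hz)

/-- An element of `H` acts on the root subgroups by scalars. -/
theorem tor_conj (c : Fin D.rank → Fˣ) {r : ℕ} (hr : r < D.nroots) (t : F) :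
    tor R D c * hF.c.xG r t * (tor R D c)⁻¹ = hF.c.xG r (((chiT D c r : Fˣ) : F) * t) := by
  have h1 := (hF.rootAct_tor c).conj ⟨r, hr⟩ t
  exact h1

theorem nrm_conj_of_mem {x : ↥(D.group F)} (hx : x.1 ∈ D.diagonalSubgroup F) : Nrm D F (MulAut.conj x) := by
  obtain ⟨c, hc⟩ := hF.mem_diagonal_iff.1 hx
  apply nrm_of_root_action hF
  · intro r hr t
    refine ⟨((chiT D c r : Fˣ) : F) * t, Subtype.ext ?_⟩
    show x.1 * hF.c.xG r t * x.1⁻¹ = _
    rw [hc, tor_conj hF c hr]
    rfl
  · intro r hr t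
    refine ⟨((chiT D c r : Fˣ) : F)⁻¹ * t, ?_⟩
    rw [MulEquiv.symm_apply_eq]
    apply Subtype.ext
    show hF.c.xG r t = x.1 * hF.c.xG r _ * x.1⁻¹
    rw [hc, tor_conj hF c hr, ← mul_assoc, mul_inv_cancel₀ (Units.ne_zero _), one_mul]

/-- The diagonal subgroup is the intersection of `Inn` with the automorphisms preserving `U`, `V`. -/
theorem card_nr_inf_inn [Finite F] : Nat.card ↥(nrSub D F ⊓ Cfsg.Inn ↥(D.group F)) = Nat.card (D.diagonalSubgroup F) := by
  symm
  refine Nat.card_congr (Equiv.ofBijective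
    (fun h : D.diagonalSubgroup F => ⟨MulAut.conj (⟨h.1, hF.c.diagonal_le_group h.2⟩ : ↥(D.group F)),
      nrm_conj_of_mem hF h.2, ⟨_, rfl⟩⟩) ⟨?_, ?_⟩)
  · intro a b e
    have h1 : MulAut.conj (⟨a.1, hF.c.diagonal_le_group a.2⟩ : ↥(D.group F)) =
        MulAut.conj (⟨b.1, hF.c.diagonal_le_group b.2⟩ : ↥(D.group F)) := congrArg Subtype.val e
    obtain ⟨c, hc⟩ := hF.mem_diagonal_iff.1 a.2
    obtain ⟨c', hc'⟩ := hF.mem_diagonal_iff.1 b.2
    have h2 : ∀ s < D.nroots, chiT D c s = chiT D c' s := by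
      intro s hs
      have h3 := DFunLike.congr_fun h1 (gx hF hs 1)
      have h4 := congrArg Subtype.val h3
      change a.1 * hF.c.xG s 1 * a.1⁻¹ = b.1 * hF.c.xG s 1 * b.1⁻¹ at h4
      rw [hc, hc', tor_conj hF c hs, tor_conj hF c' hs, mul_one, mul_one] at h4
      exact Units.ext (hF.xG_param_inj hs h4)
    apply Subtype.ext
    rw [hc, hc', hF.tor_eq, hF.tor_eq]
    exact diagG_congr D h2
  · rintro ⟨θ, hθ, z, rfl⟩
    exact ⟨⟨z.1, mem_diagonal_of_nrm hF hθ⟩, rfl⟩

/-- Outer automorphisms: the first count. -/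
theorem card_out_mul [Finite F] :
    Nat.card (Cfsg.Out ↥(D.group F)) * Nat.card (D.diagonalSubgroup F) = Nat.card (nrSub D F) := by
  haveI : Finite (GL D.Idx F) := by
    haveI := Fintype.ofFinite F
    infer_instance
  haveI : Finite ↥(D.group F) := inferInstance
  haveI : Finite (MulAut ↥(D.group F)) := inferInstance
  rw [← card_nr_inf_inn hF]
  exact card_quot_of_sup _ _ (nrSub_sup_inn hF)

end Cfsg.Agent.Lib.ChevAut
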