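import Mathlib
import Cfsg.Agent.Lib.ChevAut.Count

/-!
# Counting outer automorphisms: the automorphisms preserving `U` and `V`
-/

set_option autoImplicit false
set_option linter.unusedSectionVars false
set_option linter.unusedVariables false
set_option linter.unnecessarySimpa false

namespace Cfsg.Agent.Lib.ChevAut

open Cfsg.Lie Matrix Cfsg.Agent.Lib.Chev Cfsg.Agent.Lib.Chev.Full Cfsg.Agent.Lib.ChevFix Cfsg.Agent.Lib.ChevFix2

variable {T : Tabs} {X : Extra} {R : RootTab} {D : ChevalleyDatum}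
variable {F : Type*} [Field F]

theorem graphExp_pow_bij [Finite F] (D : ChevalleyDatum) (i j : ℕ) :
    Function.Bijective (fun t : F => t ^ D.graphExp (ringChar F) i j) := by
  apply Finite.injective_iff_bijective.1
  intro a b e
  simp only at e
  unfold ChevalleyDatum.graphExp at e
  split_ifs at e
  · exact pow_char_inj e
  · simpa using e

/-- The scalars, as a function on `ℕ`. -/
noncomputable def vx (D : ChevalleyDatum) (v : Fin D.rank → Fˣ) : ℕ → Fˣ :=
  fun j => if hj : j < D.rank then v ⟨j, hj⟩ else 1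

theorem vx_coe (v : Fin D.rank → Fˣ) (i : Fin D.rank) : vx D v i = v i := by
  simp [vx]

variable (hF : Full T X R D)

/-- A graph automorphism in the strict sense, on the fundamental root elements -/
structure IsExact (hF : Full T X R D) (ρ : Equiv.Perm (Fin D.rank)) (g : ↥(D.group F) ≃* ↥(D.group F)) : Prop where
  pos : ∀ (i : Fin D.rank) (t : F), g (gx hF (hF.simple_lt i.2) t) =
    gx hF (hF.simple_lt (ρ i).2) (t ^ D.graphExp (ringChar F) i (ρ i))
  neg : ∀ (i : Fin D.rank) (t : F), g (gx hF (hF.neg_lt (hF.simple_lt i.2)) t) =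
    gx hF (hF.neg_lt (hF.simple_lt (ρ i).2)) (t ^ D.graphExp (ringChar F) i (ρ i))

/-- The three-fold product. -/
noncomputable def mk3 (g : ↥(D.group F) ≃* ↥(D.group F)) (σ : F ≃+* F) (v : Fin D.rank → Fˣ) :
    ↥(D.group F) ≃* ↥(D.group F) :=
  (fieldAut D σ).trans (g.trans (diagAut hF (vx D v)))

/-- The symmetries of the diagram which are realized. -/
def RS (hF : Full T X R D) (F : Type*) [Field F] : Set (Equiv.Perm (Fin D.rank)) :=
  {ρ | ∃ g : ↥(D.group F) ≃* ↥(D.group F), IsExact hF ρ g}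

include hF

theorem IsExact.simpleMap [Finite F] {ρ : Equiv.Perm (Fin D.rank)} {g : ↥(D.group F) ≃* ↥(D.group F)}
    (h : IsExact hF ρ g) : SimpleMap hF g ρ := by
  constructor
  · intro i y
    constructor
    · rintro ⟨t, rfl⟩
      exact ⟨_, h.pos i t⟩
    · rintro ⟨t', ht'⟩
      obtain ⟨t, rfl⟩ := (graphExp_pow_bij (F := F) D i (ρ i)).2 t'
      refine ⟨t, g.injective ?_⟩
      rw [ht', h.pos]
  · intro i y
    constructor
    · rintro ⟨t, rfl⟩
      exact ⟨_, h.neg i t⟩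
    · rintro ⟨t', ht'⟩
      obtain ⟨t, rfl⟩ := (graphExp_pow_bij (F := F) D i (ρ i)).2 t'
      refine ⟨t, g.injective ?_⟩
      rw [ht', h.neg]

theorem IsExact.unique {ρ : Equiv.Perm (Fin D.rank)} {g g' : ↥(D.group F) ≃* ↥(D.group F)}
    (h : IsExact hF ρ g) (h' : IsExact hF ρ g') : g = g' := by
  refine MulEquiv.ext (fun y => ?_)
  refine Cfsg.Agent.Lib.ChevSimpleGen.hom_ext hF g.toMonoidHom g'.toMonoidHom ?_ y
  rintro y ⟨i, hi, t, hy | hy⟩
  · rw [eq_gx hF (hF.simple_lt hi) hy]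
    exact (h.pos ⟨i, hi⟩ t).trans (h'.pos ⟨i, hi⟩ t).symm
  · rw [eq_gx hF (hF.neg_lt (hF.simple_lt hi)) hy]
    exact (h.neg ⟨i, hi⟩ t).trans (h'.neg ⟨i, hi⟩ t).symm

theorem one_mem_RS : (1 : Equiv.Perm (Fin D.rank)) ∈ RS hF F := by
  refine ⟨MulEquiv.refl _, ?_, ?_⟩
  · intro i t
    have : D.graphExp (ringChar F) i ((1 : Equiv.Perm (Fin D.rank)) i) = 1 := by
      unfold ChevalleyDatum.graphExp
      simp
    rw [this, pow_one]
    rfl
  · intro i t
    have : D.graphExp (ringChar F) i ((1 : Equiv.Perm (Fin D.rank)) i) = 1 := by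
      unfold ChevalleyDatum.graphExp
      simp
    rw [this, pow_one]
    rfl

theorem mk3_pos {ρ : Equiv.Perm (Fin D.rank)} {g : ↥(D.group F) ≃* ↥(D.group F)} (h : IsExact hF ρ g) (σ : F ≃+* F)
    (v : Fin D.rank → Fˣ) (i : Fin D.rank) (t : F) :
    mk3 hF g σ v (gx hF (hF.simple_lt i.2) t) = gx hF (hF.simple_lt (ρ i).2)
      ((v (ρ i) : F) * (σ t) ^ D.graphExp (ringChar F) i (ρ i)) := by
  show diagAut hF (vx D v) (g (fieldAut D σ _)) = _
  rw [fieldAut_gx hF, h.pos, diagAut_gx hF, chr_simple hF _ (ρ i).2, vx_coe]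

theorem mk3_neg {ρ : Equiv.Perm (Fin D.rank)} {g : ↥(D.group F) ≃* ↥(D.group F)} (h : IsExact hF ρ g) (σ : F ≃+* F)
    (v : Fin D.rank → Fˣ) (i : Fin D.rank) (t : F) :
    mk3 hF g σ v (gx hF (hF.neg_lt (hF.simple_lt i.2)) t) = gx hF (hF.neg_lt (hF.simple_lt (ρ i).2))
      (((v (ρ i))⁻¹ : Fˣ) * (σ t) ^ D.graphExp (ringChar F) i (ρ i)) := by
  show diagAut hF (vx D v) (g (fieldAut D σ _)) = _
  rw [fieldAut_gx hF, h.neg, diagAut_gx hF, chr_neg hF _ (hF.simple_lt (ρ i).2), chr_simple hF _ (ρ i).2, vx_coe]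

theorem nrm_fieldAut (σ : F ≃+* F) : Nrm D F (fieldAut D σ) := by
  apply nrm_of_root_action hF
  · exact fun r hr t => ⟨_, fieldAut_gx hF σ hr t⟩
  · exact fun r hr t => ⟨_, fieldAut_symm_gx hF σ hr t⟩

theorem nrm_diagAut (v : ℕ → Fˣ) : Nrm D F (diagAut hF v) := by
  apply nrm_of_root_action hF
  · exact fun r hr t => ⟨_, diagAut_gx hF v hr t⟩
  · exact fun r hr t => ⟨_, diagAut_symm_gx hF v hr t⟩

theorem nrm_mk3 [Finite F] {ρ : Equiv.Perm (Fin D.rank)} {g : ↥(D.group F) ≃* ↥(D.group F)} (h : IsExact hF ρ g) (σ : F ≃+* F)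
    (v : Fin D.rank → Fˣ) : Nrm D F (mk3 hF g σ v) := by
  have h1 := (h.simpleMap hF).nrm hF
  exact ((nrSub D F).mul_mem ((nrSub D F).mul_mem (nrm_diagAut hF (vx D v)) h1) (nrm_fieldAut hF σ) :)

theorem exists_mk3 [Finite F] (hD : DiagFacts D) {θ : ↥(D.group F) ≃* ↥(D.group F)} {ρ τ c}
    (h : AutData hF θ ρ τ c) :
    ∃ (g : ↥(D.group F) ≃* ↥(D.group F)) (σ : F ≃+* F) (v : Fin D.rank → Fˣ), IsExact hF ρ g ∧ θ = mk3 hF g σ v := by
  classical
  obtain ⟨hsym, σ, hσ⟩ := exists_sigma hF hD h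
  let v : Fin D.rank → Fˣ := fun j => c (ρ.symm j)
  have hv : ∀ i : Fin D.rank, vx D v (ρ i) = c i := by
    intro i
    rw [vx_coe]
    simp [v]
  let d := diagAut hF (vx D v)
  let f := fieldAut D σ
  let g : ↥(D.group F) ≃* ↥(D.group F) := f.symm.trans (θ.trans d.symm)
  have hp : ∀ i : Fin D.rank, D.simple i < D.nroots := fun i => hF.simple_lt i.2
  have hn : ∀ i : Fin D.rank, D.neg (D.simple i) < D.nroots := fun i => hF.neg_lt (hp i)
  refine ⟨g, σ, v, ⟨?_, ?_⟩, ?_⟩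
  · intro i t
    show d.symm (θ (f.symm (gx hF (hp i) t))) = _
    rw [fieldAut_symm_gx hF σ (hp i), h.pos, hσ, RingEquiv.apply_symm_apply, diagAut_symm_gx hF _ (hp (ρ i)),
      chr_simple hF _ (ρ i).2, hv, ← mul_assoc, inv_mul_cancel₀ (Units.ne_zero _), one_mul]
  · intro i t
    show d.symm (θ (f.symm (gx hF (hn i) t))) = _
    rw [fieldAut_symm_gx hF σ (hn i), h.neg, hσ, RingEquiv.apply_symm_apply, diagAut_symm_gx hF _ (hn (ρ i)),
      chr_neg hF _ (hp (ρ i)), chr_simple hF _ (ρ i).2, hv, ← mul_assoc]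
    congr 1
    simp
  · refine MulEquiv.ext (fun y => ?_)
    show θ y = d (d.symm (θ (f.symm (f y))))
    simp

/-- The count of the automorphisms preserving `U` and `V`. -/
theorem card_nrSub [Fintype F] (hD : DiagFacts D) (hrk : 0 < D.rank) :
    Nat.card (nrSub D F) = Nat.card (RS hF F) * Nat.card (F ≃+* F) * (Fintype.card F - 1) ^ D.rank := by
  classical
  have hinj' : ∀ (i j : ℕ) {a b : F}, a ^ D.graphExp (ringChar F) i j = b ^ D.graphExp (ringChar F) i j → a = b :=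
    fun i j a b e => (graphExp_pow_bij (F := F) D i j).1 e
  let i₀ : Fin D.rank := ⟨0, hrk⟩
  let Ξ : (RS hF F) × (F ≃+* F) × (Fin D.rank → Fˣ) → nrSub D F := fun x =>
    ⟨mk3 hF (Classical.choose x.1.2) x.2.1 x.2.2, nrm_mk3 hF (Classical.choose_spec x.1.2) _ _⟩
  have hΞ : Function.Bijective Ξ := by
    constructor
    · rintro ⟨⟨ρ, hρ⟩, σ, v⟩ ⟨⟨ρ', hρ'⟩, σ', v'⟩ e
      have e' : mk3 hF (Classical.choose hρ) σ v = mk3 hF (Classical.choose hρ') σ' v' := congrArg Subtype.val e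
      have he := Classical.choose_spec hρ
      have he' := Classical.choose_spec hρ'
      have key : ∀ (i : Fin D.rank) (t : F), gx hF (hF.simple_lt (ρ i).2) ((v (ρ i) : F) * (σ t) ^ D.graphExp (ringChar F) i (ρ i)) =
          gx hF (hF.simple_lt (ρ' i).2) ((v' (ρ' i) : F) * (σ' t) ^ D.graphExp (ringChar F) i (ρ' i)) := by
        intro i t
        rw [← mk3_pos hF he, ← mk3_pos hF he', e']
      have h1 : ρ = ρ' := by
        ext i
        have h2 := key i 1
        have h3 := hF.xG_root_inj (hF.simple_lt (ρ i).2) (hF.simple_lt (ρ' i).2)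
          (t := (v (ρ i) : F) * (σ 1) ^ D.graphExp (ringChar F) i (ρ i)) (by
            rw [map_one, one_pow, mul_one]
            exact Units.ne_zero _) (congrArg Subtype.val h2)
        exact congrArg Fin.val (by
          have := hF.simple_inj (ρ i).2 (ρ' i).2 h3
          exact Fin.ext this)
      subst h1
      have hv : v = v' := by
        funext j
        obtain ⟨i, rfl⟩ := ρ.surjective j
        have h2 := gx_inj hF _ (key i 1)
        simp only [map_one, one_pow, mul_one] at h2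
        exact Units.ext h2
      subst hv
      have hσ : σ = σ' := by
        ext t
        have h2 := gx_inj hF _ (key i₀ t)
        have h3 := mul_left_cancel₀ (Units.ne_zero _) h2
        exact hinj' _ _ h3
      subst hσ
      rfl
    · rintro ⟨θ, hθ⟩
      obtain ⟨ρ, τ, c, h⟩ := exists_autData hF hθ
      obtain ⟨g, σ, v, hg, hθg⟩ := exists_mk3 hF hD h
      refine ⟨⟨⟨ρ, g, hg⟩, σ, v⟩, Subtype.ext ?_⟩
      have h2 := IsExact.unique hF (Classical.choose_spec (⟨g, hg⟩ : ρ ∈ RS hF F)) hg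
      show mk3 hF (Classical.choose (⟨g, hg⟩ : ρ ∈ RS hF F)) σ v = θ
      rw [h2, hθg]
  rw [← Nat.card_congr (Equiv.ofBijective Ξ hΞ), Nat.card_prod, Nat.card_prod, mul_assoc]
  congr 2
  rw [Nat.card_eq_fintype_card, Fintype.card_fun, Fintype.card_units, Fintype.card_fin]

/-- The main count. -/
theorem card_out_formula [Fintype F] (hD : DiagFacts D) (hrk : 0 < D.rank) :
    Nat.card (Cfsg.Out ↥(D.group F)) * Nat.card (D.diagonalSubgroup F) =
      Nat.card (RS hF F) * Nat.card (F ≃+* F) * (Fintype.card F - 1) ^ D.rank := by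
  rw [card_out_mul hF, card_nrSub hF hD hrk]

/-- The realized permutations preserve the diagram. -/
theorem RS_adj [Finite F] {ρ : Equiv.Perm (Fin D.rank)} (h : ρ ∈ RS hF F) (i j : Fin D.rank) (hij : i ≠ j) :
    (D.cartan (ρ j) (D.simple (ρ i)) = 0 ↔ D.cartan j (D.simple i) = 0) := by
  obtain ⟨g, hg⟩ := h
  obtain ⟨τ, c, hd⟩ := (hg.simpleMap hF).autData hF
  exact hd.adj i j hij

/-- A permutation exchanging the root lengths forces an additive power. -/
theorem RS_swap_additive [Finite F] (hD : DiagFacts D) {ρ : Equiv.Perm (Fin D.rank)} (h : ρ ∈ RS hF F)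
    (hlen : ∀ i, D.isLong (D.simple (ρ i)) = !D.isLong (D.simple i))
    {K : ℕ} (hK : ∀ i j : Fin D.rank, i ≠ j → D.cartan j (D.simple i) ≠ 0 →
      D.isLong (D.simple i) = false → D.isLong (D.simple j) = true →
      D.cartan j (D.simple i) = -1 ∧ D.cartan i (D.simple j) = -(K : ℤ)) {a b : Fin D.rank} (hab : a ≠ b)
    (h0 : D.cartan a (D.simple b) ≠ 0) (ha : D.isLong (D.simple a) = false) (hb : D.isLong (D.simple b) = true) (hK0 : K ≠ 0) :
    ∀ x y : F, (x + y) ^ K = x ^ K + y ^ K := by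
  obtain ⟨g, hg⟩ := h
  obtain ⟨τ, c, hd⟩ := (hg.simpleMap hF).autData hF
  have hsw : ∀ {i j : Fin D.rank}, i ≠ j → D.cartan i (D.simple j) ≠ 0 → D.cartan j (D.simple i) ≠ 0 := by
    intro i j hij h0 e
    exact h0 ((hD.sym0 i j hij).1 e)
  have hadjρ : ∀ {i j : Fin D.rank}, i ≠ j → D.cartan j (D.simple i) ≠ 0 → D.cartan (ρ j) (D.simple (ρ i)) ≠ 0 := by
    intro i j hij h0 e
    exact h0 ((hd.adj i j hij).1 e)
  have hρne : ∀ {i j : Fin D.rank}, i ≠ j → ρ i ≠ ρ j := fun hij e => hij (ρ.injective e)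
  have h1 := (hK a b hab (hsw hab h0) ha hb).2
  have h2 := (hK (ρ b) (ρ a) (hρne (Ne.symm hab)) (hadjρ (Ne.symm hab) h0) (by rw [hlen, hb]; rfl) (by rw [hlen, ha]; rfl)).1
  have hpow : ∀ u, τ a u = (τ b u) ^ K := by
    intro u
    by_cases hu : u = 0
    · simp [hu, hK0]
    · have h3 := hd.star a b u hu
      rw [h1, h2, _root_.zpow_neg_one, _root_.zpow_neg, zpow_natCast] at h3
      exact inv_injective h3
  intro x y
  obtain ⟨x', rfl⟩ := (τ b).surjective x
  obtain ⟨y', rfl⟩ := (τ b).surjective y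
  rw [← map_add, ← hpow, ← hpow, ← hpow, map_add]

end Cfsg.Agent.Lib.ChevAut
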