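import Mathlib
import Cfsg.Agent.Lib.ChevAut.Decomp
import Cfsg.Agent.Lib.Chev.RelG2
import Cfsg.Agent.Lib.Chev.RootG2
import Cfsg.Agent.Lib.Chev.RelB2
import Cfsg.Agent.Lib.Chev.RootB2
import Cfsg.Agent.Lib.Chev.RelD4
import Cfsg.Agent.Lib.Chev.RootD4
import Cfsg.Agent.Lib.Chev.RelF4
import Cfsg.Agent.Lib.Chev.RootF4
import Cfsg.Agent.Lib.Chev.RelE6
import Cfsg.Agent.Lib.Chev.RootE6
import Cfsg.Agent.Lib.Chev.RelE7
import Cfsg.Agent.Lib.Chev.RootE7
import Cfsg.Agent.Lib.Chev.RelE8
import Cfsg.Agent.Lib.Chev.RootE8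

/-!
# The diagram facts for the seven types
-/

set_option autoImplicit false
set_option linter.unusedSectionVars false
set_option linter.unusedVariables false

namespace Cfsg.Agent.Lib.ChevAut

open Cfsg.Lie Matrix Cfsg.Agent.Lib.Chev

theorem diagFacts_of_sl {D : ChevalleyDatum} (hc : Conn D)
    (hs : ∀ i j : Fin D.rank, i ≠ j → (D.cartan j (D.simple i) = 0 ↔ D.cartan i (D.simple j) = 0))
    (hl : ∀ i : Fin D.rank, D.isLong (D.simple i) = false)
    (hm : ∀ i j : Fin D.rank, i ≠ j → D.cartan j (D.simple i) = 0 ∨ D.cartan j (D.simple i) = -1) :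
    DiagFacts D where
  conn := hc
  sym0 := hs
  sym ρ hρ := by
    refine ⟨fun i j hij => ?_, Or.inl (fun i => by rw [hl, hl])⟩
    unfold ChevalleyDatum.bonds
    have hne : ρ i ≠ ρ j := fun e => hij (ρ.injective e)
    rcases hm i j hij with h0 | h1
    · have h2 := (hρ i j hij).2 h0
      rw [h0, h2, mul_zero, mul_zero]
    · have h3 : D.cartan i (D.simple j) = -1 := by
        rcases hm j i (Ne.symm hij) with h4 | h4
        · have := (hs j i (Ne.symm hij)).1 h4
          omega
        · exact h4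
      have h5 : D.cartan (ρ j) (D.simple (ρ i)) = -1 := by
        rcases hm (ρ i) (ρ j) hne with h4 | h4
        · have := (hρ i j hij).1 h4
          omega
        · exact h4
      have h6 : D.cartan (ρ i) (D.simple (ρ j)) = -1 := by
        rcases hm (ρ j) (ρ i) (Ne.symm hne) with h4 | h4
        · have := (hs (ρ j) (ρ i) (Ne.symm hne)).1 h4
          omega
        · exact h4
      rw [h1, h3, h5, h6]
  same i j hij h0 _ := (hm i j hij).resolve_left h0
  diff := ⟨2, Or.inl rfl, fun i j _ _ _ h => by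
    rw [hl] at h
    exact absurd h (by simp)⟩

/-- `decide` version for the whole chain check -/
theorem chainOK_of (D : ChevalleyDatum)
    (h : (List.range D.nroots).all (fun r => (D.chainEntry r r == []) && (D.chainEntry r (D.neg r) == [])) = true) :
    ChainOK D := by
  intro r hr
  have h1 := List.all_eq_true.1 h r (List.mem_range.2 hr)
  simp only [Bool.and_eq_true, beq_iff_eq] at h1
  exact h1

theorem diagFacts_E8 : DiagFacts chevE8 :=
  diagFacts_of_sl connE8 (by decide +kernel) (by decide +kernel) (by decide +kernel)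
theorem diagFacts_E7 : DiagFacts chevE7 :=
  diagFacts_of_sl connE7 (by decide +kernel) (by decide +kernel) (by decide +kernel)
theorem diagFacts_E6 : DiagFacts chevE6 :=
  diagFacts_of_sl connE6 (by decide +kernel) (by decide +kernel) (by decide +kernel)
theorem diagFacts_D4 : DiagFacts chevD4 :=
  diagFacts_of_sl connD4 (by decide +kernel) (by decide +kernel) (by decide +kernel)

theorem diagFacts_G2 : DiagFacts chevG2 where
  conn := connG2
  sym0 := by decide +kernel
  sym := by
    unfold ChevalleyDatum.IsDiagramSymmetry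
    decide +kernel
  same := by decide +kernel
  diff := ⟨3, Or.inr rfl, by decide +kernel⟩

theorem diagFacts_B2 : DiagFacts chevB2 where
  conn := connB2
  sym0 := by decide +kernel
  sym := by
    unfold ChevalleyDatum.IsDiagramSymmetry
    decide +kernel
  same := by decide +kernel
  diff := ⟨2, Or.inl rfl, by decide +kernel⟩

theorem diagFacts_F4 : DiagFacts chevF4 where
  conn := connF4
  sym0 := by decide +kernel
  sym := by
    unfold ChevalleyDatum.IsDiagramSymmetry
    decide +kernel
  same := by decide +kernel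
  diff := ⟨2, Or.inl rfl, by decide +kernel⟩

theorem chainOK_G2 : ChainOK chevG2 := chainOK_of _ (by decide +kernel)
theorem chainOK_B2 : ChainOK chevB2 := chainOK_of _ (by decide +kernel)
theorem chainOK_D4 : ChainOK chevD4 := chainOK_of _ (by decide +kernel)
theorem chainOK_F4 : ChainOK chevF4 := chainOK_of _ (by decide +kernel)
theorem chainOK_E6 : ChainOK chevE6 := chainOK_of _ (by decide +kernel)
theorem chainOK_E7 : ChainOK chevE7 := chainOK_of _ (by decide +kernel)
theorem chainOK_E8 : ChainOK chevE8 := chainOK_of _ (by decide +kernel)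

/-- All the data, for each type. -/
theorem exists_full_facts (D : ChevalleyDatum)
    (hD : D ∈ [chevG2, chevB2, chevD4, chevF4, chevE6, chevE7, chevE8]) :
    ∃ (T : Tabs) (X : Extra) (R : RootTab), Full T X R D ∧ DiagFacts D ∧ ChainOK D := by
  simp only [List.mem_cons, List.not_mem_nil, or_false] at hD
  rcases hD with rfl | rfl | rfl | rfl | rfl | rfl | rfl
  · exact ⟨_, _, _, ⟨RelG2.checks, RootG2.checks⟩, diagFacts_G2, chainOK_G2⟩
  · exact ⟨_, _, _, ⟨RelB2.checks, RootB2.checks⟩, diagFacts_B2, chainOK_B2⟩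
  · exact ⟨_, _, _, ⟨RelD4.checks, RootD4.checks⟩, diagFacts_D4, chainOK_D4⟩
  · exact ⟨_, _, _, ⟨RelF4.checks, RootF4.checks⟩, diagFacts_F4, chainOK_F4⟩
  · exact ⟨_, _, _, ⟨RelE6.checks, RootE6.checks⟩, diagFacts_E6, chainOK_E6⟩
  · exact ⟨_, _, _, ⟨RelE7.checks, RootE7.checks⟩, diagFacts_E7, chainOK_E7⟩
  · exact ⟨_, _, _, ⟨RelE8.checks, RootE8.checks⟩, diagFacts_E8, chainOK_E8⟩

end Cfsg.Agent.Lib.ChevAut
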