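import Mathlib
import Cfsg.Agent.Lib.ChevAut.Count2
import Cfsg.Agent.Lib.ChevAut.Types
import Cfsg.Agent.Lib.Chev.TorusCard

/-!
# The order of the outer automorphism group, from the realized symmetries of the diagram
-/

set_option autoImplicit false
set_option linter.unusedSectionVars false
set_option linter.unusedVariables false
set_option linter.unnecessarySimpa false

namespace Cfsg.Agent.Lib.ChevAut

open Cfsg.Lie Matrix Cfsg.Agent.Lib.Chev Cfsg.Agent.Lib.Chev.Full

section Walk

variable {n : ℕ}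

/-- The number of walks of length `k` from a node. -/
def walk (A : Fin n → Fin n → ℕ) : ℕ → Fin n → ℕ
  | 0, _ => 1
  | k + 1, i => ∑ j, A i j * walk A k j

theorem walk_perm (A : Fin n → Fin n → ℕ) (ρ : Equiv.Perm (Fin n)) (h : ∀ i j, A (ρ i) (ρ j) = A i j) (k : ℕ) (i : Fin n) :
    walk A k (ρ i) = walk A k i := by
  induction k generalizing i with
  | zero => rfl
  | succ k ih =>
    simp only [walk]
    rw [← Equiv.sum_comp ρ]
    apply Finset.sum_congr rfl
    intro j _
    rw [h, ih]

theorem perm_eq_one_of_walk (A : Fin n → Fin n → ℕ) (ρ : Equiv.Perm (Fin n)) (h : ∀ i j, A (ρ i) (ρ j) = A i j) (k : ℕ)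
    (hk : Function.Injective (walk A k)) : ρ = 1 := by
  ext i
  have := hk (walk_perm A ρ h k i)
  simp [this]

end Walk

/-- The adjacency matrix of the diagram -/
def adjM (D : ChevalleyDatum) (i j : Fin D.rank) : ℕ :=
  if i ≠ j ∧ D.cartan j (D.simple i) ≠ 0 then 1 else 0

theorem adjM_perm {D : ChevalleyDatum} (ρ : Equiv.Perm (Fin D.rank))
    (h : ∀ i j, i ≠ j → (D.cartan (ρ j) (D.simple (ρ i)) = 0 ↔ D.cartan j (D.simple i) = 0)) (i j : Fin D.rank) :
    adjM D (ρ i) (ρ j) = adjM D i j := by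
  unfold adjM
  by_cases hij : i = j
  · subst hij
    simp
  · have h1 : ρ i ≠ ρ j := fun e => hij (ρ.injective e)
    simp only [ne_eq, h1, hij, not_false_eq_true, true_and]
    have := h i j hij
    simp only [this]

theorem walk_E8 : Function.Injective (walk (adjM chevE8) 3) := by decide +kernel
theorem walk_E7 : Function.Injective (walk (adjM chevE7) 5) := by decide +kernel

theorem E6_perm : ∀ ρ : Equiv.Perm (Fin chevE6.rank),
    (∀ i j, i ≠ j → (chevE6.cartan (ρ j) (chevE6.simple (ρ i)) = 0 ↔ chevE6.cartan j (chevE6.simple i) = 0)) →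
    ρ = 1 ∨ ∀ i : Fin chevE6.rank, (ρ i : ℕ) = [5, 1, 4, 3, 2, 0].getD i 0 := by
  decide +kernel

variable {T : Tabs} {X : Extra} {R : RootTab} {D : ChevalleyDatum}
variable {F : Type*} [Field F]

theorem card_out_of_RS (hF : Full T X R D) [Fintype F] (hD : DiagFacts D) (hrk : 0 < D.rank) {r g p f : ℕ} [Fact p.Prime]
    (hq : Fintype.card F = p ^ f) (hR : Nat.card (RS hF F) = r)
    (ht : g * Nat.card (D.diagonalSubgroup F) = (Fintype.card F - 1) ^ D.rank) :
    Nat.card (Cfsg.Out ↥(D.group F)) = r * g * f := by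
  have h1 := card_out_formula hF hD hrk (F := F)
  rw [hR, card_ringAut' hq, ← ht] at h1
  have h2 : 0 < Nat.card (D.diagonalSubgroup F) := Nat.card_pos
  have h3 : Nat.card (Cfsg.Out ↥(D.group F)) * Nat.card (D.diagonalSubgroup F) = (r * g * f) * Nat.card (D.diagonalSubgroup F) := by
    rw [h1]
    ring
  exact Nat.eq_of_mul_eq_mul_right h2 h3

theorem card_RS_one (hF : Full T X R D) [Finite F] (h : ∀ ρ : Equiv.Perm (Fin D.rank),
    (∀ i j, i ≠ j → (D.cartan (ρ j) (D.simple (ρ i)) = 0 ↔ D.cartan j (D.simple i) = 0)) → ρ = 1) :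
    Nat.card (RS hF F) = 1 := by
  have h1 : RS hF F = {1} := by
    ext ρ
    simp only [Set.mem_singleton_iff]
    constructor
    · intro h2
      exact h ρ (RS_adj hF h2)
    · rintro rfl
      exact one_mem_RS hF
  rw [h1]
  simp

/-- Membership in `RS` from an automorphism permuting the fundamental root elements. -/
theorem mem_RS_of_param (hF : Full T X R D) [Finite F] (hD : DiagFacts D) {α : ↥(D.group F) ≃* ↥(D.group F)}
    {ρ : Equiv.Perm (Fin D.rank)} (ψ ψ' : Fin D.rank → F → F)
    (hψ : ∀ i, Function.Surjective (ψ i)) (hψ' : ∀ i, Function.Surjective (ψ' i))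
    (hp : ∀ (i : Fin D.rank) t, α (gx hF (hF.simple_lt i.2) t) = gx hF (hF.simple_lt (ρ i).2) (ψ i t))
    (hn : ∀ (i : Fin D.rank) t, α (gx hF (hF.neg_lt (hF.simple_lt i.2)) t) = gx hF (hF.neg_lt (hF.simple_lt (ρ i).2)) (ψ' i t)) :
    ρ ∈ RS hF F := by
  have hs : SimpleMap hF α ρ := by
    constructor
    · intro i y
      constructor
      · rintro ⟨t, rfl⟩
        exact ⟨_, hp i t⟩
      · rintro ⟨t', ht'⟩
        obtain ⟨t, rfl⟩ := hψ i t'
        exact ⟨t, α.injective (by rw [ht', hp])⟩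
    · intro i y
      constructor
      · rintro ⟨t, rfl⟩
        exact ⟨_, hn i t⟩
      · rintro ⟨t', ht'⟩
        obtain ⟨t, rfl⟩ := hψ' i t'
        exact ⟨t, α.injective (by rw [ht', hn])⟩
  obtain ⟨τ, c, hd⟩ := hs.autData hF
  obtain ⟨g, σ, v, hg, -⟩ := exists_mk3 hF hD hd
  exact ⟨g, hg⟩

/-- The symmetry of the diagram of `E₆`. -/
def swE6 : Equiv.Perm (Fin chevE6.rank) where
  toFun i := ⟨[5, 1, 4, 3, 2, 0].getD i 0, by revert i; decide +kernel⟩
  invFun i := ⟨[5, 1, 4, 3, 2, 0].getD i 0, by revert i; decide +kernel⟩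
  left_inv := by decide +kernel
  right_inv := by decide +kernel

theorem swE6_ne : swE6 ≠ 1 := by decide +kernel

theorem card_RS_E6 (hF : Full T X R chevE6) [Finite F] (h : swE6 ∈ RS hF F) : Nat.card (RS hF F) = 2 := by
  classical
  have h1 : RS hF F = {1, swE6} := by
    ext ρ
    simp only [Set.mem_insert_iff, Set.mem_singleton_iff]
    constructor
    · intro h2
      rcases E6_perm ρ (RS_adj hF h2) with h3 | h3
      · exact Or.inl h3
      · right
        ext i
        exact h3 i
    · rintro (rfl | rfl)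
      · exact one_mem_RS hF
      · exact h
  rw [h1, Nat.card_coe_set_eq, Set.ncard_pair (Ne.symm swE6_ne)]

end Cfsg.Agent.Lib.ChevAut
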