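import Mathlib
import Cfsg.Agent.Lib.Chev.Simple
import Cfsg.Agent.Lib.Chev.Comms

/-!
# Generating a Chevalley group by the monomial subgroup and few root subgroups
-/

set_option autoImplicit false
set_option linter.unusedSectionVars false
set_option linter.unusedVariables false
set_option linter.unnecessarySimpa false

namespace Cfsg.Agent.Lib.ChevAut.GenN

open Cfsg.Lie Matrix Cfsg.Agent.Lib.Chev Cfsg.Agent.Lib.Chev.Full

variable {T : Tabs} {X : Extra} {R : RootTab} {D : ChevalleyDatum} (hF : Full T X R D)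
variable {K : Type*} [Field K]

include hF

theorem P_wf {S : Subgroup (GL D.Idx K)} (hN : D.monomialSubgroup K ≤ S) {m s : ℕ} (hm : m < D.rank)
    (hs : s < D.nroots) (hP : ∀ t : K, hF.c.xG s t ∈ S) (t : K) : hF.c.xG (X.wf m s) t ∈ S := by
  have hn : hF.nS (F := K) m ∈ S := hN (hF.nS_mem_monomial hm)
  have h1 := S.mul_mem (S.mul_mem hn (hP (((X.eta m s : ℤ) : K) * t))) (S.inv_mem hn)
  rw [hF.nS_conj_xG hm hs, ← mul_assoc, hF.eta_sq hm hs, one_mul] at h1
  exact h1

theorem group_le_of_simple {S : Subgroup (GL D.Idx K)} (hN : D.monomialSubgroup K ≤ S)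
    (h : ∀ k < D.rank, ∀ t : K, hF.c.xG (D.simple k) t ∈ S) : D.group K ≤ S := by
  apply hF.c.group_le_of
  intro r hr t
  revert t
  exact hF.root_induction (P := fun r => ∀ t : K, hF.c.xG r t ∈ S) h
    (fun j hj s hs hP => P_wf hF hN hj hs hP) r hr

/-- The commutator step. -/
theorem P_comm {S : Subgroup (GL D.Idx K)} {r s w : ℕ} {c : ℤ} (hr : r < D.nroots) (hs : s < D.nroots)
    (h1 : s ≠ r) (h2 : s ≠ D.neg r) (hterms : D.commTerms r s = [(w, c, 1, 1)]) (hc : ((c : ℤ) : K) ≠ 0)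
    (hPr : ∀ t : K, hF.c.xG r t ∈ S) (hPs : ∀ t : K, hF.c.xG s t ∈ S) (z : K) : hF.c.xG w z ∈ S := by
  have h3 := hF.xG_comm hr hs h1 h2 (-1 : K) (((c : ℤ) : K)⁻¹ * z)
  have h4 : hF.c.wordG (D.commWord K r s (-1 : K) (((c : ℤ) : K)⁻¹ * z)) = hF.c.xG w z := by
    have h5 : D.commWord K r s (-1 : K) (((c : ℤ) : K)⁻¹ * z) = [(w, z)] := by
      simp only [ChevalleyDatum.commWord, hterms, List.map_cons, List.map_nil]
      congr 2
      simp only [neg_neg, pow_one, one_pow]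
      field_simp
    rw [h5]
    simp [Checks.wordG]
  rw [h4] at h3
  have h6 : hF.c.xG w z = (hF.c.xG r (-1) * hF.c.xG s (((c : ℤ) : K)⁻¹ * z))⁻¹ *
      (hF.c.xG s (((c : ℤ) : K)⁻¹ * z) * hF.c.xG r (-1)) := by
    rw [h3]
    group
  rw [h6]
  exact S.mul_mem (S.inv_mem (S.mul_mem (hPr _) (hPs _))) (S.mul_mem (hPs _) (hPr _))

/-- Simply laced: one fundamental root subgroup gives the others. -/
theorem all_simple_of_conn (hC : Conn D)
    (hadj : ∀ a < D.rank, ∀ b < D.rank, a ≠ b → D.cartan a (D.simple b) ≠ 0 →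
      X.wf a (X.wf b (D.simple a)) = D.simple b ∧ X.wf b (X.wf a (D.simple b)) = D.simple a)
    {S : Subgroup (GL D.Idx K)} (hN : D.monomialSubgroup K ≤ S) {i : ℕ} (hi : i < D.rank)
    (hQ : ∀ t : K, hF.c.xG (D.simple i) t ∈ S) : ∀ k < D.rank, ∀ t : K, hF.c.xG (D.simple k) t ∈ S := by
  have h1 := hC (fun k => ∀ t : K, hF.c.xG (D.simple k) t ∈ S) (by
    intro a b ha hb hab
    by_cases hne : a = b
    · subst hne
      exact Iff.rfl
    · have h2 := hadj a ha b hb hne hab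
      constructor
      · intro h3 t
        rw [← h2.1]
        exact P_wf hF hN ha (hF.wf_lt hb (hF.simple_lt ha)) (P_wf hF hN hb (hF.simple_lt ha) h3) t
      · intro h3 t
        rw [← h2.2]
        exact P_wf hF hN hb (hF.wf_lt ha (hF.simple_lt hb)) (P_wf hF hN ha (hF.simple_lt hb) h3) t)
  intro k hk
  exact (h1 k hk).2 ((h1 i hi).1 hQ)

end Cfsg.Agent.Lib.ChevAut.GenN
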