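import Mathlib
import Cfsg.Agent.Lib.ChevAut.OutTypes
import Cfsg.Agent.Lib.ChevAut.ExoTabs

/-!
# The realized symmetries of the diagrams of `G₂` and `F₄`
-/

set_option autoImplicit false
set_option linter.unusedSectionVars false
set_option linter.unusedVariables false
set_option linter.unnecessarySimpa false

namespace Cfsg.Agent.Lib.ChevAut

open Cfsg.Lie Matrix Cfsg.Agent.Lib.Chev Cfsg.Agent.Lib.Chev.Full

variable {T : Tabs} {X : Extra} {R : RootTab}
variable {F : Type*} [Field F]

theorem frob_surj [Finite F] {p : ℕ} [Fact p.Prime] [CharP F p] (x : F) : ∃ y : F, y ^ p = x := by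
  obtain ⟨y, hy⟩ := Finite.surjective_of_injective (frobenius F p).injective x
  exact ⟨y, by rwa [frobenius_def] at hy⟩

/-- The symmetry of `F₄` in characteristic two. -/
theorem swF4_mem_RS (hF : Full TabF4.T X R chevF4) [Finite F] [CharP F 2] : swF4 ∈ RS hF F := by
  haveI : Fact (Nat.Prime 2) := ⟨Nat.prime_two⟩
  obtain ⟨α, hα⟩ := Exotic.aut_of_tab (E := Exotic.tabF4) (K := F) hF connF4 (by
      haveI : CharP F 2 := ‹_›
      exact frob_surj (F := F) (p := 2))
    Exotic.bijF4 Exotic.invF4 Exotic.relF4 Exotic.shortF4 Exotic.longF4 Exotic.rhltF4 Exotic.rhsurjF4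
  have hla : ∀ i < chevF4.rank, Function.Surjective (fun t : F => t ^ Exotic.tabF4.la i) := by
    intro i hi u
    obtain ⟨j, hj, -, h⟩ : ∃ j < chevF4.rank, j = i ∧ (Exotic.tabF4.la i = 1 ∨ Exotic.tabF4.la i = 2) := by
      have : ∀ i < chevF4.rank, Exotic.tabF4.la i = 1 ∨ Exotic.tabF4.la i = 2 := by decide +kernel
      exact ⟨i, hi, rfl, this i hi⟩
    rcases h with h | h
    · exact ⟨u, by simp [h]⟩
    · simp only [h]
      exact frob_surj (F := F) (p := 2) u
  have hrh : ∀ i : Fin chevF4.rank, (swF4 i : ℕ) = Exotic.tabF4.rh i := by decide +kernel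
  refine mem_RS_of_param hF diagFacts_F4 (α := α)
    (fun i t => t ^ Exotic.tabF4.la i) (fun i t => t ^ Exotic.tabF4.la i)
    (fun i => hla i i.2) (fun i => hla i i.2) ?_ ?_
  · intro i t
    apply Subtype.ext
    apply Units.ext
    show _ = chevF4.x F (chevF4.simple (swF4 i : ℕ)) _
    rw [hrh]
    exact (hα (gx hF (hF.simple_lt i.2) t) i t i.2).1 rfl
  · intro i t
    apply Subtype.ext
    apply Units.ext
    show _ = chevF4.x F (chevF4.neg (chevF4.simple (swF4 i : ℕ))) _
    rw [hrh]
    exact (hα (gx hF (hF.neg_lt (hF.simple_lt i.2)) t) i t i.2).2 rfl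

theorem swG2_mem_RS (hF : Full TabG2.T X R chevG2) [Finite F] [CharP F 3] : swG2 ∈ RS hF F := by
  haveI : Fact (Nat.Prime 3) := ⟨Nat.prime_three⟩
  obtain ⟨α, hα⟩ := Exotic.aut_of_tab (E := Exotic.tabG2) (K := F) hF connG2 (by
      haveI : CharP F 3 := ‹_›
      exact frob_surj (F := F) (p := 3))
    Exotic.bijG2 Exotic.invG2 Exotic.relG2 Exotic.shortG2 Exotic.longG2 Exotic.rhltG2 Exotic.rhsurjG2
  have hla : ∀ i < chevG2.rank, Function.Surjective (fun t : F => t ^ Exotic.tabG2.la i) := by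
    intro i hi u
    obtain ⟨j, hj, -, h⟩ : ∃ j < chevG2.rank, j = i ∧ (Exotic.tabG2.la i = 1 ∨ Exotic.tabG2.la i = 3) := by
      have : ∀ i < chevG2.rank, Exotic.tabG2.la i = 1 ∨ Exotic.tabG2.la i = 3 := by decide +kernel
      exact ⟨i, hi, rfl, this i hi⟩
    rcases h with h | h
    · exact ⟨u, by simp [h]⟩
    · simp only [h]
      exact frob_surj (F := F) (p := 3) u
  have hrh : ∀ i : Fin chevG2.rank, (swG2 i : ℕ) = Exotic.tabG2.rh i := by decide +kernel
  refine mem_RS_of_param hF diagFacts_G2 (α := α)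
    (fun i t => t ^ Exotic.tabG2.la i) (fun i t => t ^ Exotic.tabG2.la i)
    (fun i => hla i i.2) (fun i => hla i i.2) ?_ ?_
  · intro i t
    apply Subtype.ext
    apply Units.ext
    show _ = chevG2.x F (chevG2.simple (swG2 i : ℕ)) _
    rw [hrh]
    exact (hα (gx hF (hF.simple_lt i.2) t) i t i.2).1 rfl
  · intro i t
    apply Subtype.ext
    apply Units.ext
    show _ = chevG2.x F (chevG2.neg (chevG2.simple (swG2 i : ℕ))) _
    rw [hrh]
    exact (hα (gx hF (hF.neg_lt (hF.simple_lt i.2)) t) i t i.2).2 rfl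

theorem card_RS_two {D : ChevalleyDatum} (hF : Full T X R D) [Finite F] {ρ₀ : Equiv.Perm (Fin D.rank)}
    (hne : ρ₀ ≠ 1)
    (h : ∀ ρ : Equiv.Perm (Fin D.rank),
      (∀ i j, i ≠ j → (D.cartan (ρ j) (D.simple (ρ i)) = 0 ↔ D.cartan j (D.simple i) = 0)) → ρ = 1 ∨ ρ = ρ₀)
    (h0 : ρ₀ ∈ RS hF F) : Nat.card (RS hF F) = 2 := by
  classical
  have h1 : RS hF F = {1, ρ₀} := by
    ext ρ
    simp only [Set.mem_insert_iff, Set.mem_singleton_iff]
    constructor
    · intro h2
      exact h ρ (RS_adj hF h2)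
    · rintro (rfl | rfl)
      · exact one_mem_RS hF
      · exact h0
  rw [h1, Nat.card_coe_set_eq, Set.ncard_pair (Ne.symm hne)]

theorem card_RS_one' {D : ChevalleyDatum} (hF : Full T X R D) [Finite F] {ρ₀ : Equiv.Perm (Fin D.rank)}
    (h : ∀ ρ : Equiv.Perm (Fin D.rank),
      (∀ i j, i ≠ j → (D.cartan (ρ j) (D.simple (ρ i)) = 0 ↔ D.cartan j (D.simple i) = 0)) → ρ = 1 ∨ ρ = ρ₀)
    (h0 : ρ₀ ∉ RS hF F) : Nat.card (RS hF F) = 1 := by
  classical
  have h1 : RS hF F = {1} := by
    ext ρ
    simp only [Set.mem_singleton_iff]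
    constructor
    · intro h2
      rcases h ρ (RS_adj hF h2) with h3 | h3
      · exact h3
      · subst h3
        exact absurd h2 h0
    · rintro rfl
      exact one_mem_RS hF
  rw [h1]
  simp

/-- In characteristic not two, the symmetry of `F₄` is not realized. -/
theorem swF4_not_mem_RS (hF : Full T X R chevF4) [Finite F] (h2 : (2 : F) ≠ 0) : swF4 ∉ RS hF F := by
  intro h
  have h1 := RS_swap_additive hF diagFacts_F4 h (K := 2) (by decide +kernel) (by decide +kernel)
    (a := ⟨1, by decide +kernel⟩) (b := ⟨2, by decide +kernel⟩) (by decide +kernel) (by decide +kernel) (by decide +kernel) (by decide +kernel) (by decide)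
  have h3 := h1 1 1
  apply h2
  linear_combination h3

/-- Outside characteristic three, and for more than two elements, the symmetry of `G₂` is not realized. -/
theorem swG2_not_mem_RS (hF : Full T X R chevG2) [Finite F] (h2 : (3 : F) ≠ 0) (hq : 3 ≤ Nat.card F) :
    swG2 ∉ RS hF F := by
  classical
  intro h
  have h1 := RS_swap_additive hF diagFacts_G2 h (K := 3) (by decide +kernel) (by decide +kernel)
    (a := ⟨0, by decide +kernel⟩) (b := ⟨1, by decide +kernel⟩) (by decide +kernel) (by decide +kernel) (by decide +kernel) (by decide +kernel) (by decide)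
  haveI := Fintype.ofFinite F
  obtain ⟨a, ha⟩ : ∃ a : F, a ∉ ({0, -1} : Finset F) := by
    by_contra hcon
    push Not at hcon
    have h4 : Finset.univ ⊆ ({0, -1} : Finset F) := fun x _ => hcon x
    have h5 := Finset.card_le_card h4
    have h6 : ({0, -1} : Finset F).card ≤ 2 := Finset.card_le_two
    rw [Finset.card_univ, ← Nat.card_eq_fintype_card] at h5
    omega
  simp only [Finset.mem_insert, Finset.mem_singleton, not_or] at ha
  have h3 := h1 1 a
  have h4 : (3 : F) * (a * (a + 1)) = 0 := by linear_combination h3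
  rcases mul_eq_zero.1 h4 with h5 | h5
  · exact h2 h5
  · rcases mul_eq_zero.1 h5 with h6 | h6
    · exact ha.1 h6
    · exact ha.2 (by linear_combination h6)

end Cfsg.Agent.Lib.ChevAut
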