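import Mathlib
import Cfsg.Agent.Lib.ChevAut.Count2

/-!
# The homomorphism from `Out` to the symmetries of the diagram
-/

set_option autoImplicit false
set_option linter.unusedSectionVars false
set_option linter.unusedVariables false
set_option linter.unnecessarySimpa false

namespace Cfsg.Agent.Lib.ChevAut

open Cfsg.Lie Matrix Cfsg.Agent.Lib.Chev Cfsg.Agent.Lib.Chev.Full Cfsg.Agent.Lib.ChevFix Cfsg.Agent.Lib.ChevFix2

variable {T : Tabs} {X : Extra} {R : RootTab} {D : ChevalleyDatum}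
variable {F : Type*} [Field F]
variable (hF : Full T X R D)

include hF

theorem simpleMap_unique {θ : ↥(D.group F) ≃* ↥(D.group F)} {ρ ρ' : Equiv.Perm (Fin D.rank)}
    (h : SimpleMap hF θ ρ) (h' : SimpleMap hF θ ρ') : ρ = ρ' := by
  ext i
  obtain ⟨t, ht⟩ := (h.pos i (gx hF (hF.simple_lt i.2) 1)).1 ⟨1, rfl⟩
  obtain ⟨t', ht'⟩ := (h'.pos i (gx hF (hF.simple_lt i.2) 1)).1 ⟨1, rfl⟩
  have ht0 : t ≠ 0 := by
    intro e
    rw [e] at ht
    have h3 : gx hF (hF.simple_lt (ρ i).2) (0 : F) = 1 := Subtype.ext (hF.c.xG_zero _)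
    rw [h3, map_eq_one_iff θ θ.injective] at ht
    exact xG_ne_one hF (hF.simple_lt i.2) one_ne_zero (congrArg Subtype.val ht)
  have h1 := hF.xG_root_inj (hF.simple_lt (ρ i).2) (hF.simple_lt (ρ' i).2) ht0
    (congrArg Subtype.val (ht.symm.trans ht'))
  exact congrArg Fin.val (Fin.ext (hF.simple_inj (ρ i).2 (ρ' i).2 h1))

theorem simpleMap_mul {θ₁ θ₂ : MulAut ↥(D.group F)} {ρ₁ ρ₂ : Equiv.Perm (Fin D.rank)}
    (h₁ : SimpleMap hF θ₁ ρ₁) (h₂ : SimpleMap hF θ₂ ρ₂) : SimpleMap hF (θ₁ * θ₂) (ρ₁ * ρ₂) := by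
  constructor
  · intro i g
    rw [h₂.pos i g]
    exact h₁.pos (ρ₂ i) (θ₂ g)
  · intro i g
    rw [h₂.neg i g]
    exact h₁.neg (ρ₂ i) (θ₂ g)

theorem simpleMap_of_root_action {θ : ↥(D.group F) ≃* ↥(D.group F)}
    (h : ∀ (r : ℕ) (hr : r < D.nroots) (t : F), ∃ t' : F, θ (gx hF hr t) = gx hF hr t')
    (hs : ∀ (r : ℕ) (hr : r < D.nroots) (t : F), ∃ t' : F, θ.symm (gx hF hr t) = gx hF hr t') :
    SimpleMap hF θ 1 := by
  constructor
  · intro i g
    constructor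
    · rintro ⟨t, rfl⟩
      exact h _ _ t
    · rintro ⟨t', ht'⟩
      obtain ⟨t, ht⟩ := hs _ (hF.simple_lt i.2) t'
      refine ⟨t, ?_⟩
      rw [← ht]
      rw [MulEquiv.eq_symm_apply]
      exact ht'
  · intro i g
    constructor
    · rintro ⟨t, rfl⟩
      exact h _ _ t
    · rintro ⟨t', ht'⟩
      obtain ⟨t, ht⟩ := hs _ (hF.neg_lt (hF.simple_lt i.2)) t'
      refine ⟨t, ?_⟩
      rw [← ht]
      rw [MulEquiv.eq_symm_apply]
      exact ht'

theorem simpleMap_diag (v : ℕ → Fˣ) : SimpleMap hF (diagAut hF v) 1 :=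
  simpleMap_of_root_action hF (fun r hr t => ⟨_, diagAut_gx hF v hr t⟩)
    (fun r hr t => ⟨_, diagAut_symm_gx hF v hr t⟩)

theorem simpleMap_field (σ : F ≃+* F) : SimpleMap hF (fieldAut D σ) 1 :=
  simpleMap_of_root_action hF (fun r hr t => ⟨_, fieldAut_gx hF σ hr t⟩)
    (fun r hr t => ⟨_, fieldAut_symm_gx hF σ hr t⟩)

theorem simpleMap_conj_of_mem {y : ↥(D.group F)} (hy : y.1 ∈ D.diagonalSubgroup F) :
    SimpleMap hF (MulAut.conj y) 1 := by
  obtain ⟨c, hc⟩ := hF.mem_diagonal_iff.1 hy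
  refine simpleMap_of_root_action hF ?_ ?_
  · intro r hr t
    refine ⟨((chiT D c r : Fˣ) : F) * t, Subtype.ext ?_⟩
    show y.1 * hF.c.xG r t * y.1⁻¹ = _
    rw [hc, tor_conj hF c hr]
    rfl
  · intro r hr t
    refine ⟨((chiT D c r : Fˣ) : F)⁻¹ * t, ?_⟩
    rw [MulEquiv.symm_apply_eq]
    apply Subtype.ext
    show hF.c.xG r t = y.1 * hF.c.xG r _ * y.1⁻¹
    rw [hc, tor_conj hF c hr, ← mul_assoc, mul_inv_cancel₀ (Units.ne_zero _), one_mul]

theorem exists_z_rho [Finite F] (θ : MulAut ↥(D.group F)) :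
    ∃ (z : ↥(D.group F)) (ρ : Equiv.Perm (Fin D.rank)), SimpleMap hF (MulAut.conj z * θ) ρ := by
  obtain ⟨z, hz⟩ := exists_nrm hF θ
  obtain ⟨ρ, τ, c, h⟩ := exists_autData hF hz
  exact ⟨z, ρ, AutData.simpleMap hF h⟩

theorem rho_well_defined [Finite F] {θ : MulAut ↥(D.group F)} {z z' : ↥(D.group F)} {ρ ρ' : Equiv.Perm (Fin D.rank)}
    (h : SimpleMap hF (MulAut.conj z * θ) ρ) (h' : SimpleMap hF (MulAut.conj z' * θ) ρ') : ρ = ρ' := by
  have hn := SimpleMap.nrm hF h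
  have hn' := SimpleMap.nrm hF h'
  have h1 : MulAut.conj (z' * z⁻¹) = (MulAut.conj z' * θ) * (MulAut.conj z * θ)⁻¹ := by
    rw [map_mul, map_inv]
    group
  have h2 : MulAut.conj (z' * z⁻¹) ∈ nrSub D F := by
    rw [h1]
    exact (nrSub D F).mul_mem hn' ((nrSub D F).inv_mem hn)
  have h3 := mem_diagonal_of_nrm hF h2
  have h4 := simpleMap_conj_of_mem hF h3
  have h5 := simpleMap_mul hF h4 h
  have h6 : MulAut.conj (z' * z⁻¹) * (MulAut.conj z * θ) = MulAut.conj z' * θ := by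
    rw [map_mul, map_inv]
    group
  rw [h6, one_mul] at h5
  exact simpleMap_unique hF h5 h'

/-- The permutation of the nodes attached to an automorphism. -/
noncomputable def rhoP [Finite F] (hF : Full T X R D) (θ : MulAut ↥(D.group F)) : Equiv.Perm (Fin D.rank) :=
  Classical.choose (Classical.choose_spec (exists_z_rho hF θ))

theorem rhoP_spec [Finite F] (θ : MulAut ↥(D.group F)) :
    ∃ z : ↥(D.group F), SimpleMap hF (MulAut.conj z * θ) (rhoP hF θ) :=
  ⟨_, Classical.choose_spec (Classical.choose_spec (exists_z_rho hF θ))⟩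

theorem rhoP_eq [Finite F] {θ : MulAut ↥(D.group F)} {z : ↥(D.group F)} {ρ : Equiv.Perm (Fin D.rank)}
    (h : SimpleMap hF (MulAut.conj z * θ) ρ) : rhoP hF θ = ρ := by
  obtain ⟨z', hz'⟩ := rhoP_spec hF θ
  exact rho_well_defined hF hz' h

theorem rhoP_of_simpleMap [Finite F] {θ : MulAut ↥(D.group F)} {ρ : Equiv.Perm (Fin D.rank)}
    (h : SimpleMap hF θ ρ) : rhoP hF θ = ρ := by
  apply rhoP_eq hF (z := 1)
  simpa using h

/-- The homomorphism from automorphisms to permutations of the nodes. -/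
noncomputable def rhoHom [Finite F] (hF : Full T X R D) : MulAut ↥(D.group F) →* Equiv.Perm (Fin D.rank) :=
  MonoidHom.mk' (rhoP hF) (by
    intro a b
    obtain ⟨z₁, h₁⟩ := rhoP_spec hF a
    obtain ⟨z₂, h₂⟩ := rhoP_spec hF b
    have h3 := simpleMap_mul hF h₁ h₂
    have h4 : MulAut.conj z₁ * a * (MulAut.conj z₂ * b) = MulAut.conj (z₁ * a z₂) * (a * b) := by
      refine MulEquiv.ext (fun y => ?_)
      simp only [MulAut.mul_apply, MulAut.conj_apply, map_mul, map_inv, _root_.mul_inv_rev, mul_assoc]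
    rw [h4] at h3
    exact rhoP_eq hF h3)

theorem rhoHom_apply [Finite F] (θ : MulAut ↥(D.group F)) : rhoHom hF θ = rhoP hF θ := rfl

theorem rhoHom_conj [Finite F] (x : ↥(D.group F)) : rhoHom hF (MulAut.conj x) = 1 := by
  rw [rhoHom_apply]
  apply rhoP_eq hF (z := x⁻¹)
  have h1 : MulAut.conj x⁻¹ * MulAut.conj x = 1 := by
    rw [map_inv]
    group
  rw [h1]
  exact ⟨fun i g => by simp, fun i g => by simp⟩

theorem inn_le_ker [Finite F] : Cfsg.Inn ↥(D.group F) ≤ (rhoHom hF (F := F)).ker := by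
  rintro _ ⟨x, rfl⟩
  exact rhoHom_conj hF x

end Cfsg.Agent.Lib.ChevAut
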