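import Mathlib
import Cfsg.Agent.Lib.ChevAut.OutHom

/-!
# The structure of `Out` of a Chevalley group
-/

set_option autoImplicit false
set_option linter.unusedSectionVars false
set_option linter.unusedVariables false
set_option linter.unnecessarySimpa false

namespace Cfsg.Agent.Lib.ChevAut

open Cfsg.Lie Matrix Cfsg.Agent.Lib.Chev Cfsg.Agent.Lib.Chev.Full Cfsg.Agent.Lib.ChevFix Cfsg.Agent.Lib.ChevFix2
open scoped commutatorElement

variable {T : Tabs} {X : Extra} {R : RootTab} {D : ChevalleyDatum}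
variable {F : Type*} [Field F]

/-- Field automorphisms as a homomorphism. -/
noncomputable def fHom (D : ChevalleyDatum) (F : Type*) [Field F] : (F ≃+* F) →* MulAut ↥(D.group F) :=
  MonoidHom.mk' (fieldAut D) (by
    intro a b
    refine MulEquiv.ext (fun y => ?_)
    apply Subtype.ext
    apply Units.ext
    ext i j
    rfl)

theorem fHom_apply (σ : F ≃+* F) : fHom D F σ = fieldAut D σ := rfl

variable (hF : Full T X R D)

/-- Diagonal automorphisms as a homomorphism. -/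
noncomputable def dHom (hF : Full T X R D) (F : Type*) [Field F] : (ℕ → Fˣ) →* MulAut ↥(D.group F) :=
  MonoidHom.mk' (diagAut hF) (by
    intro a b
    refine MulEquiv.ext (fun y => ?_)
    apply Subtype.ext
    show diagG D (chr R D.rank (a * b)) * y.1 * (diagG D (chr R D.rank (a * b)))⁻¹ =
      diagG D (chr R D.rank a) * (diagG D (chr R D.rank b) * y.1 * (diagG D (chr R D.rank b))⁻¹) * (diagG D (chr R D.rank a))⁻¹
    have h : diagG D (chr R D.rank (a * b)) = diagG D (chr R D.rank a) * diagG D (chr R D.rank b) := by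
      rw [diagG_mul]
      congr 1
      funext s
      exact chr_mul R D.rank a b s
    rw [h]
    group)

theorem dHom_apply (v : ℕ → Fˣ) : dHom hF F v = diagAut hF v := rfl

include hF

theorem isExact_refl : IsExact hF (1 : Equiv.Perm (Fin D.rank)) (MulEquiv.refl ↥(D.group F)) := by
  constructor
  · intro i t
    have : D.graphExp (ringChar F) i ((1 : Equiv.Perm (Fin D.rank)) i) = 1 := by
      unfold ChevalleyDatum.graphExp
      simp
    rw [this, pow_one]
    rfl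
  · intro i t
    have : D.graphExp (ringChar F) i ((1 : Equiv.Perm (Fin D.rank)) i) = 1 := by
      unfold ChevalleyDatum.graphExp
      simp
    rw [this, pow_one]
    rfl

/-- The closure of the field automorphisms is the range of `fHom`. -/
theorem closure_field (hC : ChainOK D) :
    Subgroup.closure {φ : MulAut ↥(D.group F) | D.IsFieldAut φ} = (fHom D F).range := by
  apply le_antisymm
  · rw [Subgroup.closure_le]
    rintro φ ⟨σ, hσ⟩
    refine ⟨σ, ?_⟩
    refine MulEquiv.ext (fun y => ?_)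
    refine Cfsg.Agent.Lib.ChevSimpleGen.hom_ext hF (fieldAut D σ).toMonoidHom φ.toMonoidHom ?_ y
    rintro y ⟨i, hi, t, hy | hy⟩
    · have h1 := hσ y _ t (hF.simple_lt hi) hy
      have h2 := eq_gx hF (hF.simple_lt hi) hy
      show fieldAut D σ y = φ y
      rw [eq_gx hF (hF.simple_lt hi) h1, h2, fieldAut_gx hF]
    · have h1 := hσ y _ t (hF.neg_lt (hF.simple_lt hi)) hy
      have h2 := eq_gx hF (hF.neg_lt (hF.simple_lt hi)) hy
      show fieldAut D σ y = φ y
      rw [eq_gx hF (hF.neg_lt (hF.simple_lt hi)) h1, h2, fieldAut_gx hF]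
  · rintro _ ⟨σ, rfl⟩
    exact Subgroup.subset_closure (isFieldAut_fieldAut hF σ)

/-- The closure of the diagonal automorphisms is the range of `dHom`. -/
theorem closure_diag (hC : ChainOK D)
    (hX : ∀ χ : ℕ → Fˣ, D.IsRootCharacter χ → ∀ r, r < D.nroots → ∀ t : F,
      D.charDiag F χ * D.x F r t * D.charDiag F (fun s => (χ s)⁻¹) = D.x F r ((χ r : F) * t)) :
    Subgroup.closure {φ : MulAut ↥(D.group F) | D.IsDiagonalAut φ} = (dHom hF F).range := by
  apply le_antisymm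
  · rw [Subgroup.closure_le]
    rintro φ ⟨χ, hχ, hφ⟩
    let v : ℕ → Fˣ := fun j => χ (D.simple j)
    refine ⟨v, ?_⟩
    refine MulEquiv.ext (fun y => ?_)
    refine Cfsg.Agent.Lib.ChevSimpleGen.hom_ext hF (diagAut hF v).toMonoidHom φ.toMonoidHom ?_ y
    rintro y ⟨i, hi, t, hy | hy⟩
    · have hp := hF.simple_lt hi
      have h2 := eq_gx hF hp hy
      have h1 := hφ y
      rw [hy, hX χ hχ _ hp t] at h1
      show diagAut hF v y = φ y
      rw [eq_gx hF hp h1, h2, diagAut_gx hF, chr_simple hF _ hi]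
    · have hp := hF.neg_lt (hF.simple_lt hi)
      have h2 := eq_gx hF hp hy
      have h1 := hφ y
      rw [hy, hX χ hχ _ hp t] at h1
      show diagAut hF v y = φ y
      rw [eq_gx hF hp h1, h2, diagAut_gx hF, chr_neg hF _ (hF.simple_lt hi), chr_simple hF _ hi, hχ.1 _ (hF.simple_lt hi)]
  · rintro _ ⟨v, rfl⟩
    exact Subgroup.subset_closure (isDiagonalAut_diagAut hF hC v)

/-- Conjugate of a diagonal automorphism. -/
theorem conj_diag {θ : ↥(D.group F) ≃* ↥(D.group F)} {ρ τ c} (h : AutData hF θ ρ τ c) (v : ℕ → Fˣ) :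
    ∃ v' : ℕ → Fˣ, (θ : MulAut ↥(D.group F)) * diagAut hF v * (θ : MulAut ↥(D.group F))⁻¹ = diagAut hF v' := by
  classical
  let v' : ℕ → Fˣ := fun j => if hj : j < D.rank then
    Units.map ((τ (ρ.symm ⟨j, hj⟩) : F ≃+* F) : F →* F) (v (ρ.symm ⟨j, hj⟩)) else 1
  have hv' : ∀ i : Fin D.rank, ((v' (ρ i) : Fˣ) : F) = τ i (v i : F) := by
    intro i
    simp [v', (ρ i).2]
  refine ⟨v', ?_⟩
  have hsp : ∀ (i : Fin D.rank) (s : F), θ.symm (gx hF (hF.simple_lt (ρ i).2) s) =
      gx hF (hF.simple_lt i.2) ((τ i).symm (((c i)⁻¹ : Fˣ) * s)) := by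
    intro i s
    rw [MulEquiv.symm_apply_eq, h.pos]
    congr 1
    simp
  have hsn : ∀ (i : Fin D.rank) (s : F), θ.symm (gx hF (hF.neg_lt (hF.simple_lt (ρ i).2)) s) =
      gx hF (hF.neg_lt (hF.simple_lt i.2)) ((τ i).symm ((c i : Fˣ) * s)) := by
    intro i s
    rw [MulEquiv.symm_apply_eq, h.neg]
    congr 1
    simp
  refine MulEquiv.ext (fun y => ?_)
  refine Cfsg.Agent.Lib.ChevSimpleGen.hom_ext hF
    (((θ : MulAut ↥(D.group F)) * diagAut hF v * (θ : MulAut ↥(D.group F))⁻¹ : MulAut ↥(D.group F)) : _ ≃* _).toMonoidHom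
    (diagAut hF v').toMonoidHom ?_ y
  rintro y ⟨m, hm, t, hy | hy⟩
  · obtain ⟨i, hi⟩ := ρ.surjective ⟨m, hm⟩
    have hm' : m = ρ i := by rw [hi]
    subst hm'
    rw [eq_gx hF (hF.simple_lt (ρ i).2) hy]
    show θ (diagAut hF v (θ.symm _)) = diagAut hF v' _
    rw [hsp, diagAut_gx hF, chr_simple hF _ i.2, h.pos, diagAut_gx hF, chr_simple hF _ (ρ i).2, hv']
    congr 1
    simp only [map_mul, RingEquiv.apply_symm_apply]
    have hc := Units.ne_zero (c i)
    simp only [Units.val_inv_eq_inv_val]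
    field_simp
  · obtain ⟨i, hi⟩ := ρ.surjective ⟨m, hm⟩
    have hm' : m = ρ i := by rw [hi]
    subst hm'
    rw [eq_gx hF (hF.neg_lt (hF.simple_lt (ρ i).2)) hy]
    show θ (diagAut hF v (θ.symm _)) = diagAut hF v' _
    rw [hsn, diagAut_gx hF, chr_neg hF _ (hF.simple_lt i.2), chr_simple hF _ i.2, h.neg, diagAut_gx hF,
      chr_neg hF _ (hF.simple_lt (ρ i).2), chr_simple hF _ (ρ i).2]
    congr 1
    simp only [map_mul, RingEquiv.apply_symm_apply, Units.val_inv_eq_inv_val, hv', map_inv₀]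
    have hc := Units.ne_zero (c i)
    field_simp

/-- The homomorphism `Out → Perm`. -/
noncomputable def outHom [Finite F] (hF : Full T X R D) : Cfsg.Out ↥(D.group F) →* Equiv.Perm (Fin D.rank) :=
  QuotientGroup.lift (Cfsg.Inn ↥(D.group F)) (rhoHom hF) (fun x hx => inn_le_ker hF hx)

theorem outHom_mk [Finite F] (θ : MulAut ↥(D.group F)) : outHom hF (QuotientGroup.mk θ) = rhoP hF θ := rfl

theorem mk_conj_mul (z : ↥(D.group F)) (θ : MulAut ↥(D.group F)) :
    (QuotientGroup.mk (MulAut.conj z * θ) : Cfsg.Out ↥(D.group F)) = QuotientGroup.mk θ := by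
  symm
  rw [QuotientGroup.eq]
  refine ⟨θ.symm z, ?_⟩
  refine MulEquiv.ext (fun y => ?_)
  show θ.symm z * y * (θ.symm z)⁻¹ = θ.symm (z * θ y * z⁻¹)
  simp

/-- The range of `outHom`. -/
theorem mem_range_outHom [Finite F] (hD : DiagFacts D) (ρ : Equiv.Perm (Fin D.rank)) :
    ρ ∈ (outHom hF (F := F)).range ↔ ρ ∈ RS hF F := by
  constructor
  · rintro ⟨q, rfl⟩
    obtain ⟨θ, rfl⟩ := QuotientGroup.mk_surjective q
    rw [outHom_mk]
    obtain ⟨z, hz⟩ := rhoP_spec hF θ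
    obtain ⟨τ, c, hd⟩ := SimpleMap.autData hF hz
    obtain ⟨g, σ, v, hg, -⟩ := exists_mk3 hF hD hd
    exact ⟨g, hg⟩
  · rintro ⟨g, hg⟩
    exact ⟨QuotientGroup.mk g, rhoP_of_simpleMap hF (IsExact.simpleMap hF hg)⟩

/-- The kernel of `outHom`. -/
theorem ker_outHom [Finite F] (hD : DiagFacts D) :
    (outHom hF (F := F)).ker = ((dHom hF F).range.map (QuotientGroup.mk' (Cfsg.Inn ↥(D.group F)))) ⊔
      ((fHom D F).range.map (QuotientGroup.mk' (Cfsg.Inn ↥(D.group F)))) := by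
  apply le_antisymm
  · intro q hq
    obtain ⟨θ, rfl⟩ := QuotientGroup.mk_surjective q
    have h1 : rhoP hF θ = 1 := hq
    obtain ⟨z, hz⟩ := rhoP_spec hF θ
    rw [h1] at hz
    obtain ⟨τ, c, hd⟩ := SimpleMap.autData hF hz
    obtain ⟨g, σ, v, hg, hθ⟩ := exists_mk3 hF hD hd
    have hg1 := IsExact.unique hF hg (isExact_refl hF)
    subst hg1
    rw [← mk_conj_mul hF z θ]
    have h2 : MulAut.conj z * θ = diagAut hF (vx D v) * fieldAut D σ := by
      have h3 : MulAut.conj z * θ = mk3 hF (MulEquiv.refl _) σ v := hθ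
      rw [h3]
      refine MulEquiv.ext (fun y => ?_)
      rfl
    rw [h2]
    have h3 : (QuotientGroup.mk (diagAut hF (vx D v) * fieldAut D σ) : Cfsg.Out ↥(D.group F)) =
        QuotientGroup.mk (diagAut hF (vx D v)) * QuotientGroup.mk (fieldAut D σ) := rfl
    rw [h3]
    exact Subgroup.mul_mem_sup ⟨_, ⟨_, rfl⟩, rfl⟩ ⟨_, ⟨_, rfl⟩, rfl⟩
  · rw [sup_le_iff]
    constructor
    · rintro _ ⟨_, ⟨v, rfl⟩, rfl⟩
      exact rhoP_of_simpleMap hF (simpleMap_diag hF v)
    · rintro _ ⟨_, ⟨σ, rfl⟩, rfl⟩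
      exact rhoP_of_simpleMap hF (simpleMap_field hF σ)

/-- The main structure theorem, given the possible shapes of the group of realized symmetries. -/
theorem out_struct [Finite F] (hD : DiagFacts D) (hC : ChainOK D)
    (hX : ∀ χ : ℕ → Fˣ, D.IsRootCharacter χ → ∀ r, r < D.nroots → ∀ t : F,
      D.charDiag F χ * D.x F r t * D.charDiag F (fun s => (χ s)⁻¹) = D.x F r ((χ r : F) * t))
    (hcy : IsCyclic (F ≃+* F))
    (hcases : Nat.card (RS hF F) = 1 ∨ Nat.card (RS hF F) = 2 ∨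
      (Nat.card (RS hF F) = 6 ∧ ∃ a ∈ RS hF F, ∃ b ∈ RS hF F, a * b ≠ b * a))
    (Dbar Fbar : Subgroup (Cfsg.Out ↥(D.group F)))
    (hDbar : Dbar = (Subgroup.closure {φ : MulAut ↥(D.group F) | D.IsDiagonalAut φ}).map (QuotientGroup.mk' (Cfsg.Inn ↥(D.group F))))
    (hFbar : Fbar = (Subgroup.closure {φ : MulAut ↥(D.group F) | D.IsFieldAut φ}).map (QuotientGroup.mk' (Cfsg.Inn ↥(D.group F)))) :
    Dbar.Normal ∧ IsMulCommutative ↥Dbar ∧ IsCyclic ↥Fbar ∧ (Dbar ⊔ Fbar).Normal ∧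
      ((Dbar ⊔ Fbar).index = 1 ∨ (Dbar ⊔ Fbar).index = 2 ∨
        ((Dbar ⊔ Fbar).index = 6 ∧ ¬ commutator (Cfsg.Out ↥(D.group F)) ≤ Dbar ⊔ Fbar)) := by
  classical
  rw [closure_diag hF hC hX] at hDbar
  rw [closure_field hF hC] at hFbar
  have hker : Dbar ⊔ Fbar = (outHom hF (F := F)).ker := by
    rw [ker_outHom hF hD, hDbar, hFbar]
  have hindex : (Dbar ⊔ Fbar).index = Nat.card (RS hF F) := by
    rw [hker, Subgroup.index_ker]
    exact Nat.card_congr (Equiv.subtypeEquivRight (mem_range_outHom hF hD))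
  refine ⟨?_, ?_, ?_, ?_, ?_⟩
  · -- normal
    subst hDbar
    constructor
    rintro _ ⟨_, ⟨v, rfl⟩, rfl⟩ q
    obtain ⟨θ, rfl⟩ := QuotientGroup.mk_surjective q
    obtain ⟨z, hz⟩ := rhoP_spec hF θ
    obtain ⟨τ, c, hd⟩ := SimpleMap.autData hF hz
    obtain ⟨v', hv'⟩ := conj_diag hF hd v
    refine ⟨_, ⟨v', rfl⟩, ?_⟩
    rw [← mk_conj_mul hF z θ]
    show (QuotientGroup.mk (diagAut hF v') : Cfsg.Out ↥(D.group F)) = QuotientGroup.mk ((MulAut.conj z * θ) * diagAut hF v * (MulAut.conj z * θ)⁻¹)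
    rw [← hv']
  · -- commutative
    subst hDbar
    constructor
    constructor
    rintro ⟨_, _, ⟨v, rfl⟩, rfl⟩ ⟨_, _, ⟨w, rfl⟩, rfl⟩
    apply Subtype.ext
    show (QuotientGroup.mk (dHom hF F v) : Cfsg.Out ↥(D.group F)) * QuotientGroup.mk (dHom hF F w) =
      QuotientGroup.mk (dHom hF F w) * QuotientGroup.mk (dHom hF F v)
    rw [← QuotientGroup.mk_mul, ← QuotientGroup.mk_mul, ← map_mul, ← map_mul, mul_comm]
  · -- cyclic
    subst hFbar
    let f : (F ≃+* F) →* ↥((fHom D F).range.map (QuotientGroup.mk' (Cfsg.Inn ↥(D.group F)))) :=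
      MonoidHom.codRestrict ((QuotientGroup.mk' (Cfsg.Inn ↥(D.group F))).comp (fHom D F)) _
        (fun σ => ⟨_, ⟨σ, rfl⟩, rfl⟩)
    refine isCyclic_of_surjective f ?_
    rintro ⟨_, _, ⟨σ, rfl⟩, rfl⟩
    exact ⟨σ, rfl⟩
  · rw [hker]
    exact MonoidHom.normal_ker _
  · rw [hindex]
    rcases hcases with h1 | h2 | ⟨h6, a, ha, b, hb, hab⟩
    · exact Or.inl h1
    · exact Or.inr (Or.inl h2)
    · refine Or.inr (Or.inr ⟨h6, fun hle => hab ?_⟩)
      rw [hker] at hle
      obtain ⟨qa, rfl⟩ := (mem_range_outHom hF hD a).2 ha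
      obtain ⟨qb, rfl⟩ := (mem_range_outHom hF hD b).2 hb
      have h1 : ⁅qa, qb⁆ ∈ commutator (Cfsg.Out ↥(D.group F)) :=
        Subgroup.commutator_mem_commutator (Subgroup.mem_top _) (Subgroup.mem_top _)
      have h2 := hle h1
      rw [MonoidHom.mem_ker, map_commutatorElement, commutatorElement_eq_one_iff_mul_comm] at h2
      exact h2

end Cfsg.Agent.Lib.ChevAut
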